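import Mathlib
import Cfsg.Agent.Dickson.Subfield
import Cfsg.Agent.Subfield54.Basic

/-!
Subgroups of `GL(2, F)` with a large upper unitriangular part over a subfield of prime index.
-/

set_option autoImplicit false

namespace CfsgLib.Subfield54

open Matrix MulAction CfsgLib.Dickson
open scoped MatrixGroups

variable {F : Type*} [Field F] [Fintype F] {F₀ : Subfield F}

/-- A group containing `upperT u` for `u` in an `F₀`-space of dimension at least two and a lower
transvection contains all upper transvections up to scalars. -/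
theorem exists_smul_upperT {r : ℕ} (hr : r.Prime) (hcard : Fintype.card F = Nat.card F₀ ^ r)
    (K : Subgroup (GL (Fin 2) F)) (U : AddSubgroup F)
    (hUF : ∀ c ∈ F₀, ∀ u ∈ U, c * u ∈ U) (hU : ∀ u ∈ U, upperT u ∈ K)
    {u₁ u₂ : F} (h₁ : u₁ ∈ U) (h₂ : u₂ ∈ U) (hu₁ : u₁ ≠ 0) (hind : u₂ / u₁ ∉ F₀)
    {w : F} (hw : w ≠ 0) {g₀ : GL (Fin 2) F} (hg₀ : g₀ ∈ K)
    (hg₀v : (g₀ : Matrix (Fin 2) (Fin 2) F) = !![1, 0; w, 1]) :
    ∀ x : F, ∃ g ∈ K, ∃ s : F, s ≠ 0 ∧ (g : Matrix (Fin 2) (Fin 2) F) = !![s, s * x; 0, s] := by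
  classical
  obtain ⟨p, hp⟩ := CharP.exists F
  haveI : Fact p.Prime := ⟨CharP.char_is_prime F p⟩
  set H := K.map (ProjGenLinGroup.mk (n := Fin 2) (R := F)) with hH
  -- the image of `U` in `H`
  let φ : Multiplicative U →* H :=
    { toFun := fun u => ⟨ProjGenLinGroup.mk (upperT (u.toAdd : F)),
        Subgroup.mem_map_of_mem _ (hU _ u.toAdd.2)⟩
      map_one' := Subtype.ext (by simp [upperT_zero])
      map_mul' := fun a b => Subtype.ext (by simp [upperT_mul, ← map_mul]) }
  have hφ : Function.Injective φ := by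
    intro a b hab
    have h := congrArg (fun m : PGL(2, F) => m • ((0 : F) : OnePoint F)) (congrArg Subtype.val hab)
    simp only [φ, MonoidHom.coe_mk, OneHom.coe_mk, mk_smul, upperT_smul_coe, zero_add,
      OnePoint.coe_eq_coe] at h
    exact Multiplicative.toAdd.injective (Subtype.ext h)
  -- `U` has order divisible by `p ^ 2`
  have hp2 : p ^ 2 ∣ Nat.card U := by
    let L : F₀ × F₀ → U := fun c => ⟨(c.1 : F) * u₁ + (c.2 : F) * u₂,
      U.add_mem (hUF _ c.1.2 _ h₁) (hUF _ c.2.2 _ h₂)⟩
    have hL : Function.Injective L := by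
      intro a b hab
      have h := congrArg Subtype.val hab
      simp only [L] at h
      by_cases hb : a.2 = b.2
      · refine Prod.ext (Subtype.ext (mul_right_cancel₀ hu₁ ?_)) hb
        rw [hb] at h; exact add_right_cancel h
      · exfalso; apply hind
        have hb' : ((a.2 : F) - b.2) ≠ 0 := sub_ne_zero.mpr (fun e => hb (Subtype.ext e))
        have : u₂ / u₁ = ((b.1 : F) - a.1) / ((a.2 : F) - b.2) := by
          rw [div_eq_div_iff hu₁ hb']; linear_combination h
        rw [this]
        exact F₀.div_mem (F₀.sub_mem b.1.2 a.1.2) (F₀.sub_mem a.2.2 b.2.2)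
    have hle := Nat.card_le_card_of_injective L hL
    rw [Nat.card_prod] at hle
    have h0 : 1 < Nat.card F₀ := Finite.one_lt_card
    -- a p-group
    have hpU : IsPGroup p (Multiplicative U) := by
      intro a
      refine ⟨1, Multiplicative.toAdd.injective (Subtype.ext ?_)⟩
      simp [CharP.cast_eq_zero]
    obtain ⟨k, hk⟩ := hpU.exists_card_eq
    have hk' : Nat.card U = p ^ k := hk ▸ (Nat.card_congr Multiplicative.toAdd).symm
    haveI : CharP F₀ p := F₀.subtype.charP Subtype.val_injective p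
    obtain ⟨n, -, hn⟩ := FiniteField.card F₀ p
    rw [← Nat.card_eq_fintype_card] at hn
    have hp1 : p ≤ Nat.card F₀ := hn ▸ Nat.le_self_pow (by simp) p
    have : p ^ 2 ≤ p ^ k := by rw [← hk', sq]; exact (Nat.mul_le_mul hp1 hp1).trans hle
    rw [hk']
    exact pow_dvd_pow _ ((Nat.pow_le_pow_iff_right (Fact.out : p.Prime).one_lt).mp this)
  have hcardH : p ^ 2 ∣ Nat.card H :=
    hp2.trans ((Nat.card_congr Multiplicative.toAdd).symm.dvd.trans (Subgroup.card_dvd_of_injective φ hφ))
  have hpp := (Fact.out : p.Prime)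
  have hpn : ∀ n, ¬ p ∣ n → ¬ p ^ 2 ∣ n := fun n h h' => h ((dvd_pow_self p two_ne_zero).trans h')
  rcases classify_finite' p H with ⟨x, hx⟩ | ⟨-, hc⟩ | ⟨n, -, hn, ⟨e⟩⟩ | ⟨h, ⟨e⟩⟩ | ⟨h, ⟨e⟩⟩ | ⟨h, ⟨e⟩⟩ |
    ⟨L, k, hL⟩
  · exfalso
    have h1 := hx _ (φ (Multiplicative.ofAdd ⟨u₁, h₁⟩)).2
    have h2 := hx _ (Subgroup.mem_map_of_mem _ hg₀)
    rw [mk_smul] at h2
    cases x with
    | infty =>
      rw [OnePoint.smul_infty_eq_self_iff, hg₀v] at h2
      simp at h2
      exact hw h2
    | coe c =>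
      simp [φ, mk_smul, upperT_smul_coe] at h1
      exact hu₁ h1
  · exact absurd ((dvd_pow_self p two_ne_zero).trans hcardH) hc
  · exfalso
    rw [Nat.card_congr e.toEquiv, DihedralGroup.nat_card] at hcardH
    rcases (Nat.coprime_or_dvd_of_prime hpp 2) with hc | hc
    · exact hpn n hn ((hc.pow_left 2).dvd_of_dvd_mul_left hcardH)
    · obtain rfl := (Nat.prime_dvd_prime_iff_eq hpp Nat.prime_two).mp hc
      rw [sq] at hcardH
      exact hn (Nat.dvd_of_mul_dvd_mul_left two_pos hcardH)
  · exfalso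
    rw [Nat.card_congr e.toEquiv, nat_card_alternatingGroup, Nat.card_eq_fintype_card, Fintype.card_fin] at hcardH
    exact hpn 12 h hcardH
  · exfalso
    rw [Nat.card_congr e.toEquiv, Nat.card_perm, Nat.card_eq_fintype_card, Fintype.card_fin] at hcardH
    exact hpn 24 h hcardH
  · exfalso
    rw [Nat.card_congr e.toEquiv, nat_card_alternatingGroup, Nat.card_eq_fintype_card, Fintype.card_fin] at hcardH
    rcases h with h | rfl
    · exact hpn 60 h hcardH
    · exact absurd hcardH (by decide)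
  obtain ⟨kg, rfl⟩ := ProjGenLinGroup.mk_surjective k
  have hle : H.map (MulAut.conj (ProjGenLinGroup.mk kg)).toMonoidHom ≤ (pglMap L.subtype).range := by
    rcases hL with hL | ⟨-, hL⟩
    · exact hL.le
    · exact hL.le.trans (pslImage_le _)
  set kM : Matrix (Fin 2) (Fin 2) F := (kg : Matrix (Fin 2) (Fin 2) F) with hkM
  set kI : Matrix (Fin 2) (Fin 2) F := ((kg⁻¹ : GL (Fin 2) F) : Matrix (Fin 2) (Fin 2) F) with hkI
  set N : Matrix (Fin 2) (Fin 2) F := kM * !![0, 1; 0, 0] * kI with hN
  have hki : kM * kI = 1 := by rw [hkM, hkI, ← Units.val_mul, mul_inv_cancel, Units.val_one]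
  have hik : kI * kM = 1 := by rw [hkM, hkI, ← Units.val_mul, inv_mul_cancel, Units.val_one]
  have hNL : ∀ u ∈ U, ∀ i j, u * N i j ∈ L := by
    intro u hu
    obtain ⟨t, ht⟩ := hle (Subgroup.mem_map_of_mem _ (Subgroup.mem_map_of_mem _ (hU u hu)))
    obtain ⟨S, rfl⟩ := ProjGenLinGroup.mk_surjective t
    rw [pglMap_mk, MulEquiv.coe_toMonoidHom, MulAut.conj_apply, ← map_inv, ← map_mul, ← map_mul,
      ProjGenLinGroup.mk_eq_mk_iff] at ht
    obtain ⟨lam, hlam⟩ := ht
    have hmat : kM * (upperT u : Matrix (Fin 2) (Fin 2) F) * kI = 1 + u • N := by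
      have : (upperT u : Matrix (Fin 2) (Fin 2) F) = 1 + u • !![0, 1; 0, 0] := by
        ext i j; fin_cases i <;> fin_cases j <;> simp [upperT, GeneralLinearGroup.mkOfDetNeZero]
      rw [this, mul_add, add_mul, mul_one, hki, Matrix.mul_smul, Matrix.smul_mul]
    have he : ∀ i j, (1 + u • N) i j = ((S i j : L) : F) * lam := by
      intro i j
      rw [← hmat]
      have := congrArg (fun m : GL (Fin 2) F => (m : Matrix (Fin 2) (Fin 2) F) i j) hlam
      simp only [Units.val_mul] at this
      rw [← this]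
      simp [Matrix.mul_diagonal, GeneralLinearGroup.map_apply]
    have htr : (1 + u • N).trace = 2 := by
      rw [← hmat, Matrix.trace_mul_cycle, hik, one_mul]
      simp [upperT, GeneralLinearGroup.mkOfDetNeZero, Matrix.trace_fin_two, one_add_one_eq_two]
    have hdt : (1 + u • N).det = 1 := by
      rw [← hmat, Matrix.det_mul, Matrix.det_mul, mul_comm kM.det, mul_assoc, ← Matrix.det_mul, hki,
        Matrix.det_one, mul_one]
      simp [upperT, GeneralLinearGroup.mkOfDetNeZero]
    rw [Matrix.trace_fin_two, he, he] at htr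
    rw [Matrix.det_fin_two, he, he, he, he] at hdt
    set a := S 0 0; set b := S 0 1; set c := S 1 0; set d := S 1 1
    have hlamL : (lam : F) ∈ L := by
      by_cases h2 : (2 : F) = 0
      · haveI : CharP F 2 := by
          have : CharP F (ringChar F) := ringChar.charP F
          have h2' : ringChar F ∣ 2 := (CharP.cast_eq_zero_iff F (ringChar F) 2).mp (by exact_mod_cast h2)
          rcases (Nat.dvd_prime Nat.prime_two).mp h2' with h | h
          · exact absurd h (CharP.ringChar_ne_one)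
          · exact h ▸ this
        haveI : CharP L 2 := L.subtype.charP Subtype.val_injective 2
        obtain ⟨y, hy⟩ := (bijective_frobenius L 2).2 (a * d - b * c)⁻¹
        rw [frobenius_def] at hy
        have h1 : (y : F) ^ 2 = (lam : F) ^ 2 := by
          rw [← SubmonoidClass.coe_pow, hy]
          push_cast
          apply inv_eq_of_mul_eq_one_right
          linear_combination hdt
        have h3 : ((y : F) - lam) ^ 2 = 0 := by
          linear_combination h1 + ((lam : F) ^ 2 - y * lam) * h2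
        rw [← sub_eq_zero.mp (pow_eq_zero_iff two_ne_zero |>.mp h3)]
        exact y.2
      · have hs : ((a : F) + d) ≠ 0 := fun h0 => h2 (by rw [← htr, ← add_mul, h0, zero_mul])
        have : (lam : F) = 2 / ((a : F) + d) := by
          rw [eq_div_iff hs]; linear_combination htr
        rw [this]
        exact L.div_mem (by simpa using L.add_mem L.one_mem L.one_mem) (L.add_mem a.2 d.2)
    intro i j
    have := he i j
    rw [Matrix.add_apply, Matrix.smul_apply, smul_eq_mul] at this
    have e : u * N i j = ((S i j : L) : F) * lam - (1 : Matrix (Fin 2) (Fin 2) F) i j := by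
      linear_combination this
    rw [e]
    refine L.sub_mem (L.mul_mem (S i j).2 hlamL) ?_
    rw [Matrix.one_apply]; split
    · exact L.one_mem
    · exact L.zero_mem
  obtain ⟨i₀, j₀, hN0⟩ : ∃ i j, N i j ≠ 0 := by
    by_contra hall
    push Not at hall
    have : kI * N * kM = !![0, 1; 0, 0] := by
      rw [hN, ← mul_assoc, ← mul_assoc, hik, one_mul, mul_assoc, hik, mul_one]
    rw [show N = 0 from Matrix.ext hall, Matrix.mul_zero, Matrix.zero_mul] at this
    simpa using congrFun (congrFun this 0) 1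
  have hratio : ∀ u ∈ U, u / u₁ ∈ L := fun u hu => by
    rw [← mul_div_mul_right u u₁ hN0]
    exact L.div_mem (hNL u hu i₀ j₀) (hNL u₁ h₁ i₀ j₀)
  have hall : ∀ x, x ∈ L := eq_univ_of_mul_closed hr hcard (L : Set F)
    (fun c hc => by simpa [mul_div_cancel_right₀ _ hu₁] using hratio _ (hUF c hc u₁ h₁))
    (fun x hx y hy => L.add_mem hx hy) (fun x hx y hy => L.mul_mem hx hy) (hratio u₂ h₂) hind
  intro x
  have hsub : pslImage (RingHom.id F) ≤ H.map (MulAut.conj (ProjGenLinGroup.mk kg)).toMonoidHom := by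
    have h1 : pslImage (RingHom.id F) ≤ pslImage L.subtype :=
      pslImage_mono _ _ fun a => ⟨⟨a, hall a⟩, rfl⟩
    rcases hL with hL | ⟨-, hL⟩
    · exact h1.trans ((pslImage_le _).trans hL.ge)
    · exact h1.trans hL.ge
  let S : Matrix.SpecialLinearGroup (Fin 2) F :=
    ⟨kM * (upperT x : Matrix (Fin 2) (Fin 2) F) * kI, by
      rw [Matrix.det_mul, Matrix.det_mul, mul_comm kM.det, mul_assoc, ← Matrix.det_mul, hki,
        Matrix.det_one, mul_one]
      simp [upperT, GeneralLinearGroup.mkOfDetNeZero]⟩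
  obtain ⟨t, ⟨g, hg, rfl⟩, ht⟩ := hsub ⟨S, rfl⟩
  have hS : SpecialLinearGroup.toPGL S = ProjGenLinGroup.mk (kg * upperT x * kg⁻¹) :=
    congrArg ProjGenLinGroup.mk (Units.ext rfl)
  rw [MulEquiv.coe_toMonoidHom, MulAut.conj_apply, MonoidHom.comp_apply, hS, pglMap_mk,
    show GeneralLinearGroup.map (RingHom.id F) (kg * upperT x * kg⁻¹) = kg * upperT x * kg⁻¹ from
      Units.ext (Matrix.ext fun i j => by simp [GeneralLinearGroup.map_apply]),
    map_mul, map_mul, map_inv, mul_left_inj, mul_right_inj, eq_comm, ProjGenLinGroup.mk_eq_mk_iff] at ht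
  obtain ⟨lam, hlam⟩ := ht
  refine ⟨g, hg, lam, lam.ne_zero, ?_⟩
  rw [← hlam]
  ext i j
  fin_cases i <;> fin_cases j <;>
    simp [upperT, GeneralLinearGroup.mkOfDetNeZero, Matrix.mul_apply, Fin.sum_univ_two, mul_comm]

end CfsgLib.Subfield54
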