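import Mathlib
import Cfsg.Agent.Subfield54.SL2

/-!
Maximality of subfield groups in the special linear group.
-/

set_option autoImplicit false

namespace CfsgLib.Subfield54

open Matrix CfsgLib.TransvGL CfsgLib.Dickson

variable {ι : Type} [Fintype ι] [DecidableEq ι] {F : Type*} [Field F] {F₀ : Subfield F}

/-- SL is generated by elementary transvections. -/
theorem specialLinear_le_of_elem_mem (H : Subgroup (GL ι F))
    (hH : ∀ (i j : ι) (hij : i ≠ j) (a : F), elem hij a ∈ H) :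
    Cfsg.Geo.specialLinear ι F ≤ H := by
  intro g hg
  have hdet : (g : Matrix ι ι F).det = 1 := by
    rw [Cfsg.Geo.specialLinear, MonoidHom.mem_ker, Units.ext_iff] at hg
    exact hg
  cases subsingleton_or_nontrivial ι with
  | inl hs =>
    have : g = 1 := by
      apply Units.ext
      ext i j
      have hd := Matrix.det_eq_elem_of_subsingleton (g : Matrix ι ι F) i
      obtain rfl := Subsingleton.elim j i
      simpa [hd] using hdet
    rw [this]; exact one_mem H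
  | inr hnt =>
    let toG : Matrix.SpecialLinearGroup ι F →* GL ι F := Matrix.SpecialLinearGroup.toGL
    have key : ∀ M : Matrix.SpecialLinearGroup ι F, toG M ∈ H := by
      intro M
      have helem : ∀ (i j : ι) (hij : i ≠ j) (a : F),
          toG (Matrix.SpecialLinearGroup.transvection hij a) = elem hij a := by
        intro i j hij a
        apply ext_mulVec
        intro x
        rw [elem_mulVec]
        show ((1 : Matrix ι ι F) + Matrix.single i j a) *ᵥ x = _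
        rw [add_mulVec, one_mulVec, Matrix.single_mulVec]
        congr 1
        ext k
        by_cases hk : k = i <;> simp [hk]
      refine Matrix.SpecialLinearGroup.diagonal_transvection_induction' (fun M => toG M ∈ H) M
        ?_ ?_ ?_
      · intro i j hij c hc
        have h6 : toG (Matrix.SpecialLinearGroup.diag2n hij c hc) =
            elem hij c * elem hij.symm (-c⁻¹) * elem hij c *
              (elem hij (-1) * elem hij.symm 1 * elem hij (-1)) := by
          apply ext_mulVec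
          intro x
          simp only [Units.val_mul, ← mulVec_mulVec, elem_mulVec]
          show (Matrix.diagonal fun k => if k = i then c else if k = j then c⁻¹ else 1) *ᵥ x = _
          ext k
          rw [mulVec_diagonal]
          by_cases hki : k = i
          · subst hki; simp [hij, Ne.symm hij]; field_simp; ring
          · by_cases hkj : k = j
            · subst hkj; simp [hij, Ne.symm hij]; field_simp; ring
            · simp [hki, hkj]
        rw [h6]
        refine H.mul_mem (H.mul_mem (H.mul_mem ?_ ?_) ?_) (H.mul_mem (H.mul_mem ?_ ?_) ?_)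
        all_goals exact hH _ _ _ _
      · intro i j hij a
        rw [helem]
        exact hH _ _ _ _
      · intro A B hA hB
        rw [map_mul]
        exact H.mul_mem hA hB
    have he : toG ⟨(g : Matrix ι ι F), hdet⟩ = g := Units.ext rfl
    exact he ▸ key _

/-- The transvection with centre `b` and functional `ψ` lies in `M`. -/
def Mem (M : Subgroup (GL ι F)) (b : ι → F) (ψ : Module.Dual F (ι → F)) : Prop :=
  ∃ h : ψ b = 0, transv h ∈ M

variable {M : Subgroup (GL ι F)}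

theorem Mem.congr {b b' : ι → F} {ψ ψ' : Module.Dual F (ι → F)} (h : Mem M b ψ) (h' : ψ' b' = 0)
    (he : ∀ x, ψ x • b = ψ' x • b') : Mem M b' ψ' := by
  obtain ⟨h0, hM⟩ := h
  exact ⟨h', transv_congr h0 h' he ▸ hM⟩

theorem mem_of_trivial {b : ι → F} {ψ : Module.Dual F (ι → F)} (h : b = 0 ∨ ψ = 0) : Mem M b ψ := by
  have h0 : ψ b = 0 := by rcases h with rfl | rfl <;> simp
  refine ⟨h0, ?_⟩
  have : transv h0 = 1 := ext_mulVec fun x => by
    rcases h with rfl | rfl <;> simp [transv_mulVec]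
  rw [this]; exact M.one_mem

theorem Mem.of_smul {b : ι → F} {ψ : Module.Dual F (ι → F)} {c : F} (hc : c ≠ 0)
    (h : Mem M (c • b) ψ) : Mem M b (c • ψ) :=
  h.congr (by
    have h0 := h.1
    simpa [hc] using h0) fun x => by simp [smul_smul, mul_comm]

theorem Mem.neg {b : ι → F} {ψ : Module.Dual F (ι → F)} (h : Mem M b ψ) : Mem M b (-ψ) := by
  obtain ⟨h0, hM⟩ := h
  exact ⟨by simp [h0], transv_inv h0 ▸ M.inv_mem hM⟩

theorem Mem.add {b : ι → F} {ψ ψ' : Module.Dual F (ι → F)} (h : Mem M b ψ) (h' : Mem M b ψ') :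
    Mem M b (ψ + ψ') := by
  obtain ⟨h0, hM⟩ := h
  obtain ⟨h0', hM'⟩ := h'
  exact ⟨by simp [h0, h0'], transv_mul_left h0 h0' ▸ M.mul_mem hM hM'⟩

theorem Mem.add_centre {v w : ι → F} {ψ : Module.Dual F (ι → F)} (h : Mem M v ψ) (h' : Mem M w ψ) :
    Mem M (v + w) ψ := by
  obtain ⟨h0, hM⟩ := h
  obtain ⟨h0', hM'⟩ := h'
  refine ⟨by simp [h0, h0'], ?_⟩
  have : transv h0 * transv h0' = transv (φ := ψ) (v := v + w) (by simp [h0, h0']) := by
    apply ext_mulVec
    intro x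
    rw [Units.val_mul, ← mulVec_mulVec]
    simp [transv_mulVec, h0']
    module
  exact this ▸ M.mul_mem hM hM'

theorem Mem.conj {g : GL ι F} (hg : g ∈ M) {a : ι → F} {φ ψ : Module.Dual F (ι → F)} (h : Mem M a φ)
    (hψ : ∀ x, ψ ((g : Matrix ι ι F) *ᵥ x) = φ x) : Mem M ((g : Matrix ι ι F) *ᵥ a) ψ := by
  obtain ⟨h0, hM⟩ := h
  have h0' : ψ ((g : Matrix ι ι F) *ᵥ a) = 0 := by rw [hψ, h0]
  exact ⟨h0', conj_transv g h0 h0' rfl hψ ▸ M.mul_mem (M.mul_mem hg hM) (M.inv_mem hg)⟩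

/-- The commutator rule. -/
theorem Mem.comm {a b : ι → F} {φ ψ : Module.Dual F (ι → F)} (hb : Mem M b ψ) (ha : Mem M a φ)
    (h : φ b = 0) : Mem M b (ψ a • φ) := by
  obtain ⟨h0, hM⟩ := hb
  have h1 := Mem.conj hM ha (ψ := φ) (fun x => by simp [transv_mulVec, h])
  rw [transv_mulVec] at h1
  have h2 : Mem M (-a) φ := ha.neg.congr (by simp [ha.1]) fun x => by simp
  have h3 := h1.add_centre h2
  by_cases hc : ψ a = 0
  · exact mem_of_trivial (Or.inr (by rw [hc, zero_smul]))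
  · exact Mem.of_smul hc (by simpa using h3)

theorem transv_rat_mem {a : ι → F} {φ : Module.Dual F (ι → F)} (ha : Rat F₀ a) (hφ : RatD F₀ φ)
    (h : φ a = 0) : transv h ∈ Cfsg.Geo.subfieldSubgroup F₀ 1 := by
  refine mem_subfield_of_entries (s₀ := 1) fun i j => ⟨_, ?_, (one_mul _).symm⟩
  have := congrFun (transv_mulVec h (Pi.single j 1)) i
  rw [mulVec_single_one] at this
  rw [show (transv h : Matrix ι ι F) i j = _ from this]
  exact F₀.add_mem (rat_single j i) (F₀.mul_mem (hφ j) (ha i))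

variable (hM : Cfsg.Geo.subfieldSubgroup F₀ 1 ⊓ Cfsg.Geo.specialLinear ι F ≤ M)

include hM in
theorem mem_rat {a : ι → F} {φ : Module.Dual F (ι → F)} (ha : Rat F₀ a) (hφ : RatD F₀ φ)
    (h : φ a = 0) : Mem M a φ :=
  ⟨h, hM ⟨transv_rat_mem ha hφ h, transv_mem_specialLinear h⟩⟩

theorem exists_ratD_one {a : ι → F} (ha : Rat F₀ a) (ha0 : a ≠ 0) :
    ∃ φ : Module.Dual F (ι → F), RatD F₀ φ ∧ φ a = 1 := by
  obtain ⟨k, hk⟩ := exists_coord_ne ha0
  exact ⟨(a k)⁻¹ • LinearMap.proj k, (ratD_proj k).smul (F₀.inv_mem (ha k)), by simp [hk]⟩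

theorem exists_ne_zero_of_ne_zero {φ : Module.Dual F (ι → F)} (h : φ ≠ 0) :
    ∃ i, φ (Pi.single i 1) ≠ 0 := by
  by_contra hno
  push Not at hno
  exact h (LinearMap.ext fun v => by rw [dual_apply_eq_sum]; simp [hno])

/-- There is a transvection in `M` with rational centre and irrational functional, first case. -/
theorem irrational_functional_case1 (hn : 3 ≤ Fintype.card ι)
    (hrat : ∀ a φ, Rat F₀ a → RatD F₀ φ → φ a = 0 → Mem M a φ)
    {b : ι → F} (hbL : ¬ RatLine F₀ b) {ψ : Module.Dual F (ι → F)} (hψ0 : ψ ≠ 0) (hb : Mem M b ψ)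
    {φ : Module.Dual F (ι → F)} (hφ : RatD F₀ φ) (hφ0 : φ ≠ 0) (hφb : φ b = 0) :
    ∃ a χ, Rat F₀ a ∧ a ≠ 0 ∧ Mem M a χ ∧ ¬ RatD F₀ χ := by
  obtain ⟨c, hc, hbc⟩ : ∃ c : F, c ≠ 0 ∧ Mem M b (c • φ) := by
    by_cases hall : ∀ v, Rat F₀ v → φ v = 0 → ψ v = 0
    · obtain ⟨s, hs⟩ := mem_dual_line_of_forall hφ hφ0 hall
      exact ⟨s, fun h => hψ0 (by rw [hs, h, zero_smul]), hs ▸ hb⟩
    · push Not at hall
      obtain ⟨a, ha, hφa, hψa⟩ := hall
      exact ⟨ψ a, hψa, hb.comm (hrat a φ ha hφ hφa) hφb⟩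
  by_contra hno
  push Not at hno
  obtain ⟨j, hj⟩ := exists_ne_zero_of_ne_zero hφ0
  have key : ∀ i, b i * c ∈ F₀ := by
    intro i
    obtain ⟨a, ha, ha0, haφ⟩ := exists_rat_kernel (F₀ := F₀) (k := 2) (by omega)
      ![LinearMap.proj i, φ] (by simp [Fin.forall_fin_two, ratD_proj, hφ])
    have h1 : LinearMap.proj (R := F) (φ := fun _ : ι => F) i a = 0 := haφ 0
    have h2 : φ a = 0 := haφ 1
    have h3 := (hrat a _ ha (ratD_proj i) h1).comm hbc (by simp [h2])
    have h4 := hno a _ ha ha0 h3 j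
    simp only [LinearMap.proj_apply, LinearMap.smul_apply, smul_eq_mul, ← mul_assoc] at h4
    have := F₀.div_mem h4 (hφ j)
    rwa [mul_div_cancel_right₀ _ hj] at this
  exact hbL ⟨c⁻¹, fun i => b i * c, key, funext fun i => by simp; field_simp⟩

/-- There is a transvection in `M` with rational centre and irrational functional, second case. -/
theorem irrational_functional_case2 [Fintype F] {r : ℕ} (hr : r.Prime)
    (hcard : Fintype.card F = Nat.card F₀ ^ r) (hn : 3 ≤ Fintype.card ι)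
    (hrat : ∀ a φ, Rat F₀ a → RatD F₀ φ → φ a = 0 → Mem M a φ)
    {b : ι → F} (hbL : ¬ RatLine F₀ b) {ψ : Module.Dual F (ι → F)} (hψ0 : ψ ≠ 0) (hb : Mem M b ψ)
    (hinj : ∀ φ, RatD F₀ φ → φ b = 0 → φ = 0) :
    ∃ a χ, Rat F₀ a ∧ a ≠ 0 ∧ Mem M a χ ∧ ¬ RatD F₀ χ := by
  classical
  obtain ⟨i, hi⟩ := exists_ne_zero_of_ne_zero hψ0
  set a : ι → F := Pi.single i 1 with ha'
  have ha : Rat F₀ a := rat_single i
  have ha0 : a ≠ 0 := by simp [ha']
  obtain ⟨hψb, hbM⟩ := hb
  set W : Submodule F (ι → F) := Submodule.span F {a, b} with hW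
  have haW : a ∈ W := Submodule.subset_span (by simp)
  have hbW : b ∈ W := Submodule.subset_span (by simp)
  let Kset : Set (GL (Fin 2) F) := {k | ∃ g ∈ M,
    (g : Matrix ι ι F) *ᵥ a = k 0 0 • a + k 1 0 • b ∧
    (g : Matrix ι ι F) *ᵥ b = k 0 1 • a + k 1 1 • b ∧
    ∀ v, (g : Matrix ι ι F) *ᵥ v - v ∈ W}
  have hone : (1 : GL (Fin 2) F) ∈ Kset :=
    ⟨1, M.one_mem, by simp, by simp, fun v => by simp⟩
  have hmul : ∀ {k k'}, k ∈ Kset → k' ∈ Kset → k * k' ∈ Kset := by
    rintro k k' ⟨g, hg, ga, gb, gW⟩ ⟨g', hg', ga', gb', gW'⟩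
    have hstab : ∀ v ∈ W, (g : Matrix ι ι F) *ᵥ v ∈ W := fun v hv => by
      simpa using W.add_mem (gW v) hv
    refine ⟨g * g', M.mul_mem hg hg', ?_, ?_, fun v => ?_⟩
    · rw [Units.val_mul, ← mulVec_mulVec, ga', mulVec_add, mulVec_smul, mulVec_smul, ga, gb]
      simp only [Units.val_mul, Matrix.mul_apply, Fin.sum_univ_two]
      module
    · rw [Units.val_mul, ← mulVec_mulVec, gb', mulVec_add, mulVec_smul, mulVec_smul, ga, gb]
      simp only [Units.val_mul, Matrix.mul_apply, Fin.sum_univ_two]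
      module
    · rw [Units.val_mul, ← mulVec_mulVec]
      have := W.add_mem (hstab _ (gW' v)) (gW v)
      rwa [mulVec_sub, sub_add_sub_cancel] at this
  let K : Subgroup (GL (Fin 2) F) :=
    { carrier := Kset
      one_mem' := hone
      mul_mem' := hmul
      inv_mem' := fun {k} hk => by
        have hpow : ∀ m : ℕ, k ^ m ∈ Kset := fun m => by
          induction m with
          | zero => simpa using hone
          | succ m ih => rw [pow_succ]; exact hmul ih hk
        have : k⁻¹ = k ^ (orderOf k - 1) := by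
          refine inv_eq_of_mul_eq_one_right ?_
          rw [← pow_succ', Nat.sub_add_cancel (orderOf_pos k), pow_orderOf_eq_one]
        rw [this]; exact hpow _ }
  let U : AddSubgroup F :=
    { carrier := {x | ∃ φ, RatD F₀ φ ∧ φ a = 0 ∧ φ b = x}
      zero_mem' := ⟨0, fun i => by simp [F₀.zero_mem], by simp, by simp⟩
      add_mem' := by
        rintro _ _ ⟨φ, h1, h2, rfl⟩ ⟨φ', h1', h2', rfl⟩
        exact ⟨φ + φ', h1.add h1', by simp [h2, h2'], rfl⟩
      neg_mem' := by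
        rintro _ ⟨φ, h1, h2, rfl⟩
        exact ⟨-φ, fun i => F₀.neg_mem (h1 i), by simp [h2], rfl⟩ }
  have hUF : ∀ c ∈ F₀, ∀ u ∈ U, c * u ∈ U := by
    rintro c hc _ ⟨φ, h1, h2, rfl⟩
    exact ⟨c • φ, h1.smul hc, by simp [h2], rfl⟩
  have hUK : ∀ u ∈ U, upperT u ∈ K := by
    rintro _ ⟨φ, h1, h2, rfl⟩
    obtain ⟨h0, hm⟩ := hrat a φ ha h1 h2
    refine ⟨transv h0, hm, ?_, ?_, fun v => ?_⟩
    · simp [transv_mulVec, h2, upperT, GeneralLinearGroup.mkOfDetNeZero]
    · simp [transv_mulVec, upperT, GeneralLinearGroup.mkOfDetNeZero, add_comm]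
    · simpa [transv_mulVec] using W.smul_mem _ haW
  obtain ⟨φ₁, h1, h10, h1a⟩ := exists_ratD_kernel (F₀ := F₀) (k := 1) (by omega) ![a] (by simp [ha])
  obtain ⟨j, hj⟩ := exists_ne_zero_of_ne_zero h10
  obtain ⟨φ₂, h2, h20, h2a⟩ := exists_ratD_kernel (F₀ := F₀) (k := 2) (by omega)
    ![a, Pi.single j (1 : F)] (by simp [Fin.forall_fin_two, ha, rat_single])
  have hu1 : φ₁ b ≠ 0 := fun h => h10 (hinj φ₁ h1 h)
  have hind : φ₂ b / φ₁ b ∉ F₀ := fun h => by
    have := hinj _ (h2.sub (h1.smul h)) (by simp [hu1])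
    have e := LinearMap.congr_fun this (Pi.single j 1)
    have h2j : φ₂ (Pi.single j 1) = 0 := h2a 1
    simp [h2j, hj] at e
    exact h20 (hinj φ₂ h2 (e.resolve_right hu1))
  let g₀ : GL (Fin 2) F := GeneralLinearGroup.mkOfDetNeZero !![1, 0; ψ a, 1] (by simp [det_fin_two])
  have hg₀ : g₀ ∈ K := ⟨transv hψb, hbM,
    by simp [transv_mulVec, g₀, GeneralLinearGroup.mkOfDetNeZero],
    by simp [transv_mulVec, hψb, g₀, GeneralLinearGroup.mkOfDetNeZero],
    fun v => by simpa [transv_mulVec] using W.smul_mem _ hbW⟩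
  have h1a0 : φ₁ a = 0 := h1a 0
  have h2a0 : φ₂ a = 0 := h2a 0
  obtain ⟨φx, hx, hxa⟩ := exists_ratD_one ha ha0
  obtain ⟨k, ⟨g, hg, ga, gb, gW⟩, s, hs, hk⟩ := exists_smul_upperT hr hcard K U hUF hUK
    ⟨φ₁, h1, h1a0, rfl⟩ ⟨φ₂, h2, h2a0, rfl⟩ hu1 hind hi hg₀ rfl (φx b)
  set x := φx b
  rw [hk] at ga gb
  simp only [Matrix.cons_val', Matrix.cons_val_zero, Matrix.cons_val_one, Matrix.of_apply,
    Matrix.empty_val', Matrix.cons_val_fin_one, zero_smul, add_zero] at ga gb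
  by_contra hno
  push Not at hno
  have hfix : ∀ φ, RatD F₀ φ → φ a = 0 → ∀ v, φ ((g : Matrix ι ι F) *ᵥ v) = s * φ v := by
    intro φ hφ hφa
    set φ' := φ.comp (Matrix.mulVecLin ((g⁻¹ : GL ι F) : Matrix ι ι F)) with hφ'
    have e1 : ∀ v, φ' ((g : Matrix ι ι F) *ᵥ v) = φ v := fun v => by
      simp [hφ', inv_mulVec_mulVec]
    have h := (hrat a φ ha hφ hφa).conj hg e1
    rw [ga] at h
    have hχ := hno a _ ha ha0 (h.of_smul hs)
    have hφ'a : φ' a = 0 := by
      have := e1 a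
      rw [ga, map_smul, hφa, smul_eq_mul] at this
      exact (mul_eq_zero.mp this).resolve_left hs
    have hφ'b : s * φ' b = φ b := by
      have := e1 b
      rw [gb] at this
      simpa [hφ'a] using this
    have heq : s • φ' = φ := sub_eq_zero.mp (hinj _ (hχ.sub hφ) (by simp [hφ'b]))
    intro v
    rw [← LinearMap.congr_fun heq ((g : Matrix ι ι F) *ᵥ v)]
    simp [e1]
  have hline : ∀ v, ∃ t : F, (g : Matrix ι ι F) *ᵥ v - s • v = t • a := fun v =>
    mem_line_of_forall ha ha0 fun φ hφ hφa => by simp [hfix φ hφ hφa v]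
  have hs1 : s = 1 := by
    by_contra hs1
    have htop : (⊤ : Submodule F (ι → F)) ≤ W := fun v _ => by
      obtain ⟨t, ht⟩ := hline v
      have h3 : (s - 1) • v ∈ W := by
        have : (s - 1) • v = ((g : Matrix ι ι F) *ᵥ v - v) - t • a := by rw [← ht]; module
        rw [this]
        exact W.sub_mem (gW v) (W.smul_mem t haW)
      have := W.smul_mem (s - 1)⁻¹ h3
      rwa [inv_smul_smul₀ (sub_ne_zero.mpr hs1)] at this
    have h4 := Submodule.finrank_mono htop
    rw [finrank_top, Module.finrank_pi] at h4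
    have h5 : Module.finrank F W ≤ 2 :=
      (finrank_span_le_card ({a, b} : Set (ι → F))).trans (by
        rw [Set.toFinset_insert, Set.toFinset_singleton]; exact Finset.card_le_two)
    omega
  subst hs1
  simp only [one_smul] at ga gb hline
  obtain ⟨l, hl⟩ := exists_coord_ne ha0
  set χ : Module.Dual F (ι → F) := (a l)⁻¹ • ((LinearMap.proj l).comp
    (Matrix.mulVecLin (g : Matrix ι ι F) - LinearMap.id)) with hχ'
  have hχv : ∀ v, (g : Matrix ι ι F) *ᵥ v = v + χ v • a := fun v => by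
    obtain ⟨t, ht⟩ := hline v
    have : χ v = t := by
      have := congrFun ht l
      simp only [Pi.sub_apply, Pi.smul_apply, smul_eq_mul] at this
      simp [hχ', this]
      field_simp
    rw [this, ← ht]; module
  have hχa : χ a = 0 := by simp [hχ', ga]
  have hχb : χ b = x := by
    simp [hχ', gb]
    field_simp
  have hmem : Mem M a χ := ⟨hχa, by
    rwa [show transv hχa = g from ext_mulVec fun v => by rw [transv_mulVec, hχv]]⟩
  have hR := hno a χ ha ha0 hmem
  have := hinj _ (hR.sub hx) (by simp [hχb, x])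
  have e := LinearMap.congr_fun this a
  simp [hχa, hxa] at e

include hM in
/-- A transvection of `M` with rational centre and irrational functional. -/
theorem exists_irrational_functional [Fintype F] {r : ℕ} (hr : r.Prime)
    (hcard : Fintype.card F = Nat.card F₀ ^ r) (hn : 3 ≤ Fintype.card ι) {g : GL ι F} (hg : g ∈ M)
    (hgH : g ∉ Cfsg.Geo.subfieldSubgroup F₀ 1) :
    ∃ a χ, Rat F₀ a ∧ a ≠ 0 ∧ Mem M a χ ∧ ¬ RatD F₀ χ := by
  obtain ⟨v, hv, hvL⟩ : ∃ v : ι → F, Rat F₀ v ∧ ¬ RatLine F₀ ((g : Matrix ι ι F) *ᵥ v) := by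
    by_contra hno
    push Not at hno
    exact hgH (mem_subfield_of_ratLine hno)
  obtain ⟨φ, hφ, hφ0, hφv⟩ := exists_ratD_kernel (F₀ := F₀) (k := 1) (by omega) ![v] (by simp [hv])
  set ψ := φ.comp (Matrix.mulVecLin ((g⁻¹ : GL ι F) : Matrix ι ι F)) with hψ
  have e1 : ∀ x, ψ ((g : Matrix ι ι F) *ᵥ x) = φ x := fun x => by simp [hψ, inv_mulVec_mulVec]
  have hψ0 : ψ ≠ 0 := fun h => hφ0 (LinearMap.ext fun x => by rw [← e1, h]; simp)
  have hb := (mem_rat hM hv hφ (hφv 0)).conj hg e1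
  by_cases hinj : ∀ φ, RatD F₀ φ → φ ((g : Matrix ι ι F) *ᵥ v) = 0 → φ = 0
  · exact irrational_functional_case2 hr hcard hn (fun _ _ => mem_rat hM) hvL hψ0 hb hinj
  · push Not at hinj
    obtain ⟨φ', h1, h2, h3⟩ := hinj
    exact irrational_functional_case1 hn (fun _ _ => mem_rat hM) hvL hψ0 hb h1 h3 h2

theorem move_centre_ne {a a' : ι → F} {φ : Module.Dual F (ι → F)} {c : F}
    (hrat : ∀ a φ, Rat F₀ a → RatD F₀ φ → φ a = 0 → Mem M a φ) (ha : Rat F₀ a) (ha' : Rat F₀ a')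
    (h : Mem M a (c • φ)) (hφa' : φ a' = 0) (ha'0 : a' ≠ 0) (hli : ∀ t : F, a ≠ t • a') :
    Mem M a' (c • φ) := by
  obtain ⟨φ', hφ', hφ'a', hφ'a⟩ : ∃ φ', RatD F₀ φ' ∧ φ' a' = 0 ∧ φ' a ≠ 0 := by
    by_contra hno
    push Not at hno
    obtain ⟨t, ht⟩ := mem_line_of_forall ha' ha'0 hno
    exact hli t ht
  have h2 := (hrat a' ((φ' a)⁻¹ • φ') ha' (hφ'.smul (F₀.inv_mem (hφ'.apply_mem ha)))
    (by simp [hφ'a'])).comm h (by simp [hφa'])
  simpa [hφ'a] using h2

theorem move_centre (hn : 3 ≤ Fintype.card ι) {a a' : ι → F} {φ : Module.Dual F (ι → F)} {c : F}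
    (hrat : ∀ a φ, Rat F₀ a → RatD F₀ φ → φ a = 0 → Mem M a φ) (ha : Rat F₀ a) (ha0 : a ≠ 0)
    (hφ : RatD F₀ φ) (ha' : Rat F₀ a') (h : Mem M a (c • φ)) (hφa' : φ a' = 0) :
    Mem M a' (c • φ) := by
  by_cases ha'0 : a' = 0
  · exact mem_of_trivial (Or.inl ha'0)
  by_cases hli : ∀ t : F, a ≠ t • a'
  · exact move_centre_ne hrat ha ha' h hφa' ha'0 hli
  push Not at hli
  obtain ⟨t, ht⟩ := hli
  obtain ⟨χ, hχ, hχa⟩ := exists_ratD_one ha ha0
  obtain ⟨e, he, he0, hek⟩ := exists_rat_kernel (F₀ := F₀) (k := 2) (by omega) ![φ, χ]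
    (by simp [Fin.forall_fin_two, hφ, hχ])
  have hφe : φ e = 0 := hek 0
  have hχe : χ e = 0 := hek 1
  have h1 : ∀ t : F, a ≠ t • e := fun t h => by rw [h] at hχa; simp [hχe] at hχa
  have h2 : ∀ t : F, e ≠ t • a' := fun u hu => by
    have ht0 : t ≠ 0 := fun h => ha0 (by rw [ht, h, zero_smul])
    refine he0 ?_
    have : e = (u / t) • a := by rw [ht, smul_smul, div_mul_cancel₀ _ ht0, hu]
    rw [this] at hχe ⊢
    simp [hχa] at hχe
    simp [hχe]
  exact move_centre_ne hrat he ha' (move_centre_ne hrat ha he h hφe he0 h1) hφa' ha'0 h2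

theorem move_functional_ne {a : ι → F} {φ φ' : Module.Dual F (ι → F)} {c : F}
    (hrat : ∀ a φ, Rat F₀ a → RatD F₀ φ → φ a = 0 → Mem M a φ) (hφ : RatD F₀ φ) (hφ' : RatD F₀ φ')
    (h : Mem M a (c • φ)) (hφ'a : φ' a = 0) (hφ'0 : φ' ≠ 0) (hli : ∀ t : F, φ ≠ t • φ') :
    Mem M a (c • φ') := by
  obtain ⟨e, he, hφ'e, hφe⟩ : ∃ e, Rat F₀ e ∧ φ' e = 0 ∧ φ e ≠ 0 := by
    by_contra hno
    push Not at hno
    obtain ⟨t, ht⟩ := mem_dual_line_of_forall hφ' hφ'0 hno
    exact hli t ht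
  have h2 := h.comm (hrat ((φ e)⁻¹ • e) φ' (he.smul (F₀.inv_mem (hφ.apply_mem he))) hφ'
    (by simp [hφ'e])) hφ'a
  have hc : (φ e)⁻¹ * (c * φ e) = c := by field_simp
  simpa [hc] using h2

theorem move_functional (hn : 3 ≤ Fintype.card ι) {a : ι → F} {φ φ' : Module.Dual F (ι → F)} {c : F}
    (hrat : ∀ a φ, Rat F₀ a → RatD F₀ φ → φ a = 0 → Mem M a φ) (ha : Rat F₀ a) (hφ : RatD F₀ φ)
    (hφ0 : φ ≠ 0) (hφ' : RatD F₀ φ') (h : Mem M a (c • φ)) (hφ'a : φ' a = 0) :
    Mem M a (c • φ') := by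
  by_cases hφ'0 : φ' = 0
  · exact mem_of_trivial (Or.inr (by rw [hφ'0, smul_zero]))
  by_cases hli : ∀ t : F, φ ≠ t • φ'
  · exact move_functional_ne hrat hφ hφ' h hφ'a hφ'0 hli
  push Not at hli
  obtain ⟨t, ht⟩ := hli
  obtain ⟨j, hj⟩ := exists_ne_zero_of_ne_zero hφ0
  obtain ⟨χ, hχ, hχ0, hχk⟩ := exists_ratD_kernel (F₀ := F₀) (k := 2) (by omega)
    ![a, Pi.single j (1 : F)] (by simp [Fin.forall_fin_two, ha, rat_single])
  have hχa : χ a = 0 := hχk 0
  have hχj : χ (Pi.single j 1) = 0 := hχk 1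
  have h1 : ∀ t : F, φ ≠ t • χ := fun t h => by rw [h] at hj; simp [hχj] at hj
  have h2 : ∀ t : F, χ ≠ t • φ' := fun u hu => by
    have ht0 : t ≠ 0 := fun h => hφ0 (by rw [ht, h, zero_smul])
    refine hχ0 ?_
    have : χ = (u / t) • φ := by rw [ht, smul_smul, div_mul_cancel₀ _ ht0, hu]
    rw [this] at hχj ⊢
    simp [hj] at hχj
    rcases hχj with h | h <;> simp [h] at ht0 ⊢
  exact move_functional_ne hrat hχ hφ' (move_functional_ne hrat hφ hχ h hχa hχ0 h1) hφ'a hφ'0 h2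

include hM in
/-- A subgroup strictly above the subfield group contains the special linear group. -/
theorem specialLinear_le_of_not_le [Fintype F] {r : ℕ} (hr : r.Prime)
    (hcard : Fintype.card F = Nat.card F₀ ^ r) (hn : 3 ≤ Fintype.card ι) {g : GL ι F} (hg : g ∈ M)
    (hgH : g ∉ Cfsg.Geo.subfieldSubgroup F₀ 1) : Cfsg.Geo.specialLinear ι F ≤ M := by
  have hrat : ∀ a φ, Rat F₀ a → RatD F₀ φ → φ a = 0 → Mem M a φ := fun _ _ => mem_rat hM
  obtain ⟨a, χ, ha, ha0, hmem, hχ⟩ := exists_irrational_functional hM hr hcard hn hg hgH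
  obtain ⟨i, hi⟩ := not_forall.mp hχ
  obtain ⟨φ, hφ, hφ0, hφk⟩ := exists_ratD_kernel (F₀ := F₀) (k := 2) (by omega)
    ![a, Pi.single i (1 : F)] (by simp [Fin.forall_fin_two, ha, rat_single])
  have hseed := hmem.comm (hrat _ φ (rat_single i) hφ (hφk 1)) (hφk 0)
  set S : Set F := {c | ∀ a φ, Rat F₀ a → RatD F₀ φ → φ a = 0 → Mem M a (c • φ)} with hS
  have hS0 : ∀ x ∈ F₀, x ∈ S := fun x hx a φ ha hφ h => hrat a _ ha (hφ.smul hx) (by simp [h])
  have hSadd : ∀ x ∈ S, ∀ y ∈ S, x + y ∈ S := fun x hx y hy a φ ha hφ h => by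
    rw [add_smul]; exact (hx a φ ha hφ h).add (hy a φ ha hφ h)
  have hcS : χ (Pi.single i 1) ∈ S := by
    intro a' φ' ha' hφ' h'
    obtain ⟨φ1, h1, h10, h1k⟩ := exists_ratD_kernel (F₀ := F₀) (k := 2) (by omega)
      ![a, a'] (by simp [Fin.forall_fin_two, ha, ha'])
    exact move_functional hn hrat ha' h1 h10 hφ'
      (move_centre hn hrat ha ha0 h1 ha'
        (move_functional hn hrat ha hφ hφ0 h1 hseed (h1k 0)) (h1k 1)) h'
  have hSmul : ∀ x ∈ S, ∀ y ∈ S, x * y ∈ S := by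
    intro x hx y hy a φ ha hφ h
    by_cases ha0 : a = 0
    · exact mem_of_trivial (Or.inl ha0)
    obtain ⟨χ, hχ, hχa⟩ := exists_ratD_one ha ha0
    obtain ⟨e, he, he0, hek⟩ := exists_rat_kernel (F₀ := F₀) (k := 2) (by omega) ![φ, χ]
      (by simp [Fin.forall_fin_two, hφ, hχ])
    have hφe : φ e = 0 := hek 0
    obtain ⟨φ1, h1, h1a, h1e⟩ : ∃ φ1, RatD F₀ φ1 ∧ φ1 a = 0 ∧ φ1 e ≠ 0 := by
      by_contra hno
      push Not at hno
      obtain ⟨t, ht⟩ := mem_line_of_forall ha ha0 hno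
      have hχe : χ e = 0 := hek 1
      rw [ht] at hχe
      simp [hχa] at hχe
      exact he0 (by rw [ht, hχe, zero_smul])
    have m1 := hx a ((φ1 e)⁻¹ • φ1) ha (h1.smul (F₀.inv_mem (h1.apply_mem he))) (by simp [h1a])
    have m2 := m1.comm (hy e φ he hφ hφe) (by simp [h])
    simpa [h1e, smul_smul] using m2
  have hall := eq_univ_of_mul_closed hr hcard S hS0 hSadd hSmul hcS hi
  refine specialLinear_le_of_elem_mem M fun i j hij c => ?_
  exact (hall c (Pi.single i 1) (LinearMap.proj j) (rat_single i) (ratD_proj j) (by simp [Ne.symm hij])).2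

/-- The subfield subgroups are maximal in the special linear group. -/
theorem subfield_maximal_specialLinear [Fintype F] (hn : 3 ≤ Fintype.card ι) {r : ℕ} (hr : r.Prime)
    (hcard : Fintype.card F = Nat.card F₀ ^ r) (P : GL ι F) :
    Cfsg.Geo.IsMaximalIn (Cfsg.Geo.specialLinear ι F)
      (Cfsg.Geo.subfieldSubgroup F₀ P ⊓ Cfsg.Geo.specialLinear ι F) := by
  have hF : F₀ ≠ ⊤ := by
    intro h
    have e : Nat.card F₀ = Fintype.card F := by
      rw [h, Nat.card_congr Subfield.topEquiv.toEquiv, Nat.card_eq_fintype_card]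
    rw [e] at hcard
    have := lt_self_pow₀ (Fintype.one_lt_card (α := F)) hr.one_lt
    omega
  refine ⟨lt_of_le_of_ne inf_le_right fun h => ?_, fun M hHM hMS => ?_⟩
  · exact CfsgLib.Aschbacher.not_le_subfieldSubgroup (by omega) hF P (h ▸ inf_le_left)
  by_cases hle : M ≤ Cfsg.Geo.subfieldSubgroup F₀ P
  · exact Or.inl (le_antisymm (le_inf hle hMS) hHM)
  refine Or.inr (le_antisymm hMS ?_)
  obtain ⟨g, hg, hgH⟩ := SetLike.not_le_iff_exists.mp hle
  haveI : (Cfsg.Geo.specialLinear ι F).Normal :=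
    inferInstanceAs (MonoidHom.ker _).Normal
  set c := (MulAut.conj P).toMonoidHom
  have key : Cfsg.Geo.specialLinear ι F ≤ M.comap c := by
    refine specialLinear_le_of_not_le (F₀ := F₀) ?_ hr hcard hn (g := P⁻¹ * g * P) ?_ ?_
    · rintro x ⟨hx, hxS⟩
      refine hHM ⟨?_, Subgroup.Normal.conj_mem inferInstance x hxS P⟩
      simpa [Cfsg.Geo.subfieldSubgroup, c] using hx
    · simpa [c, ← mul_assoc] using hg
    · intro hmem
      apply hgH
      simp only [Cfsg.Geo.subfieldSubgroup, Subgroup.mem_map] at hmem ⊢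
      obtain ⟨y, hy, hye⟩ := hmem
      exact ⟨y, hy, by simp_all [mul_assoc]⟩
  intro x hx
  have := key (Subgroup.Normal.conj_mem' inferInstance x hx P)
  simpa [c, Subgroup.mem_comap, mul_assoc] using this

end CfsgLib.Subfield54
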