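import Mathlib
import Cfsg.Agent.Subfield54.SpPlane
import Cfsg.Agent.Classical.SympFormStd
import Cfsg.Agent.Aschbacher.SympMembers

/-!
Maximality of subfield groups in the symplectic group.
-/

set_option autoImplicit false

namespace CfsgLib.Subfield54.Sp

open Matrix CfsgLib.TransvGL CfsgLib.AltFormTransv CfsgLib.Dickson

variable {ι : Type} [Fintype ι] [DecidableEq ι] {F : Type*} [Field F] [Fintype F] {F₀ : Subfield F}
variable {f : (ι → F) → (ι → F) → F}
variable (hf : Cfsg.Geo.IsSymplecticForm f) (hR : RatForm f F₀) {M : Subgroup (GL ι F)}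
  (hI : ∀ g ∈ M, ∀ x y, f ((g : Matrix ι ι F) *ᵥ x) ((g : Matrix ι ι F) *ᵥ y) = f x y)
  (hT : ∀ v c, Rat F₀ v → c ∈ F₀ → sympT hf v c ∈ M)

/-- A lower unitriangular matrix. -/
def lowerT {K : Type*} [Field K] (c : K) : GL (Fin 2) K :=
  GeneralLinearGroup.mkOfDetNeZero !![1, 0; c, 1] (by simp [det_fin_two])

omit [Fintype F] in
theorem diag_conj_upperT {t : F} (ht : t ≠ 0) (σ : F) :
    upperT t * lowerT (-t⁻¹) * upperT t * (upperT (-1) * lowerT 1 * upperT (-1)) * upperT σ =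
      upperT (t ^ 2 * σ) *
        (upperT t * lowerT (-t⁻¹) * upperT t * (upperT (-1) * lowerT 1 * upperT (-1))) := by
  ext i j
  fin_cases i <;> fin_cases j <;>
    simp [upperT, lowerT, GeneralLinearGroup.mkOfDetNeZero, Matrix.mul_apply, Fin.sum_univ_two] <;>
    field_simp <;> (try ring_nf) <;> simp

include hR hI hT in
/-- One irrational long root element at a rational vector gives all of them at this vector. -/
theorem long_root_all {r : ℕ} (hr : r.Prime) (hcard : Fintype.card F = Nat.card F₀ ^ r) {a : ι → F}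
    (ha : Rat F₀ a) (ha0 : a ≠ 0) {σ : F} (hσ : σ ∉ F₀) (hσM : sympT hf a σ ∈ M) :
    ∀ x : F, sympT hf a x ∈ M := by
  classical
  obtain ⟨y₁, hy₁, hy₁a⟩ := exists_rat_pair_ne (F₀ := F₀) hf ha0
  obtain ⟨a₂, ha₂, h21⟩ : ∃ a₂, Rat F₀ a₂ ∧ f a₂ a = -1 :=
    ⟨(-(f y₁ a)⁻¹) • y₁, hy₁.smul (F₀.neg_mem (F₀.inv_mem (hR _ _ hy₁ ha))), by
      rw [hf.bilinear.smul_left, neg_mul, inv_mul_cancel₀ hy₁a]⟩
  have h12 : f a a₂ = 1 := by rw [hf.skew, h21, neg_neg]
  let Kset : Set (GL (Fin 2) F) := {k | ∃ g ∈ M,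
    (g : Matrix ι ι F) *ᵥ a = k 0 0 • a + k 1 0 • a₂ ∧
    (g : Matrix ι ι F) *ᵥ a₂ = k 0 1 • a + k 1 1 • a₂ ∧
    ∀ z, f z a = 0 → f z a₂ = 0 → (g : Matrix ι ι F) *ᵥ z = z}
  have hone : (1 : GL (Fin 2) F) ∈ Kset :=
    ⟨1, M.one_mem, by simp, by simp, fun z _ _ => by simp⟩
  have hmul : ∀ {k k'}, k ∈ Kset → k' ∈ Kset → k * k' ∈ Kset := by
    rintro k k' ⟨g, hg, ga, gb, gz⟩ ⟨g', hg', ga', gb', gz'⟩
    refine ⟨g * g', M.mul_mem hg hg', ?_, ?_,
      fun z h1 h2 => by rw [Units.val_mul, ← mulVec_mulVec, gz' z h1 h2, gz z h1 h2]⟩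
    · rw [Units.val_mul, ← mulVec_mulVec, ga', mulVec_add, mulVec_smul, mulVec_smul, ga, gb]
      simp only [Units.val_mul, Matrix.mul_apply, Fin.sum_univ_two]
      module
    · rw [Units.val_mul, ← mulVec_mulVec, gb', mulVec_add, mulVec_smul, mulVec_smul, ga, gb]
      simp only [Units.val_mul, Matrix.mul_apply, Fin.sum_univ_two]
      module
  let K : Subgroup (GL (Fin 2) F) :=
    { carrier := Kset
      one_mem' := hone
      mul_mem' := hmul
      inv_mem' := fun {k} hk => by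
        have hpow : ∀ m : ℕ, k ^ m ∈ Kset := fun m => by
          induction m with
          | zero => simpa using hone
          | succ m ih => rw [pow_succ]; exact hmul ih hk
        have : k⁻¹ = k ^ (orderOf k - 1) := by
          refine inv_eq_of_mul_eq_one_right ?_
          rw [← pow_succ', Nat.sub_add_cancel (orderOf_pos k), pow_orderOf_eq_one]
        rw [this]; exact hpow _ }
  have hup : ∀ x : F, sympT hf a (-x) ∈ M → upperT x ∈ K := fun x hx => ⟨_, hx,
    by simp [sympT_mulVec, hf.alternating, upperT, GeneralLinearGroup.mkOfDetNeZero],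
    by simp [sympT_mulVec, h21, upperT, GeneralLinearGroup.mkOfDetNeZero, add_comm],
    fun z h1 _ => by simp [sympT_mulVec, h1]⟩
  have hlow : ∀ c ∈ F₀, lowerT c ∈ K := fun c hc => ⟨_, hT a₂ c ha₂ hc,
    by simp [sympT_mulVec, h12, lowerT, GeneralLinearGroup.mkOfDetNeZero],
    by simp [sympT_mulVec, hf.alternating, lowerT, GeneralLinearGroup.mkOfDetNeZero],
    fun z _ h2 => by simp [sympT_mulVec, h2]⟩
  have hupF : ∀ c ∈ F₀, upperT c ∈ K := fun c hc => hup c (hT a _ ha (F₀.neg_mem hc))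
  let U : AddSubgroup F :=
    { carrier := {x | upperT x ∈ K}
      zero_mem' := hupF 0 F₀.zero_mem
      add_mem' := fun {x y} hx hy => by
        show upperT (x + y) ∈ K
        rw [← upperT_mul]; exact K.mul_mem hx hy
      neg_mem' := fun {x} hx => by
        show upperT (-x) ∈ K
        rw [upperT_neg]; exact K.inv_mem hx }
  have hsq : ∀ t ∈ F₀, ∀ u ∈ U, t ^ 2 * u ∈ U := by
    intro t ht u hu
    by_cases ht0 : t = 0
    · simpa [ht0] using U.zero_mem
    · have hD : upperT t * lowerT (-t⁻¹) * upperT t * (upperT (-1) * lowerT 1 * upperT (-1)) ∈ K :=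
        K.mul_mem (K.mul_mem (K.mul_mem (hupF t ht) (hlow _ (F₀.neg_mem (F₀.inv_mem ht)))) (hupF t ht))
          (K.mul_mem (K.mul_mem (hupF _ (F₀.neg_mem F₀.one_mem)) (hlow _ F₀.one_mem))
            (hupF _ (F₀.neg_mem F₀.one_mem)))
      show upperT (t ^ 2 * u) ∈ K
      rw [eq_mul_inv_of_mul_eq (diag_conj_upperT ht0 u).symm]
      exact K.mul_mem (K.mul_mem hD hu) (K.inv_mem hD)
  have hUF : ∀ c ∈ F₀, ∀ u ∈ U, c * u ∈ U := by
    intro c hc u hu
    by_cases h2 : (2 : F) = 0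
    · haveI : CharP F 2 := by
        have : CharP F (ringChar F) := ringChar.charP F
        have h2' : ringChar F ∣ 2 := (CharP.cast_eq_zero_iff F (ringChar F) 2).mp (by exact_mod_cast h2)
        rcases (Nat.dvd_prime Nat.prime_two).mp h2' with h | h
        · exact absurd h (CharP.ringChar_ne_one)
        · exact h ▸ this
      haveI : CharP F₀ 2 := F₀.subtype.charP Subtype.val_injective 2
      obtain ⟨y, hy⟩ := (bijective_frobenius F₀ 2).2 ⟨c, hc⟩
      rw [frobenius_def] at hy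
      have h1 : (y : F) ^ 2 = c := by rw [← SubmonoidClass.coe_pow, hy]
      exact h1 ▸ hsq _ y.2 u hu
    · have h2F : (2 : F) ∈ F₀ := by
        simpa [one_add_one_eq_two] using F₀.add_mem F₀.one_mem F₀.one_mem
      have e : c * u = ((c + 1) / 2) ^ 2 * u - ((c - 1) / 2) ^ 2 * u := by field_simp; ring
      rw [e]
      exact U.sub_mem (hsq _ (F₀.div_mem (F₀.add_mem hc F₀.one_mem) h2F) u hu)
        (hsq _ (F₀.div_mem (F₀.sub_mem hc F₀.one_mem) h2F) u hu)
  intro x
  obtain ⟨k, ⟨g, hg, ga, gb, gz⟩, s, hs, hk⟩ := exists_smul_upperT hr hcard K U hUF (fun u hu => hu)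
    (u₁ := 1) (u₂ := -σ) (show upperT 1 ∈ K from hupF 1 F₀.one_mem)
    (show upperT (-σ) ∈ K from hup _ (by rwa [neg_neg])) one_ne_zero
    (by rw [div_one]; exact fun h => hσ (by simpa using F₀.neg_mem h))
    one_ne_zero (hlow 1 F₀.one_mem) rfl (if (2 : F) = 0 then -x else -x / 2)
  rw [hk] at ga gb
  simp only [Matrix.cons_val', Matrix.cons_val_zero, Matrix.cons_val_one, Matrix.of_apply,
    Matrix.empty_val', Matrix.cons_val_fin_one, zero_smul, add_zero] at ga gb
  generalize hx' : (if (2 : F) = 0 then -x else -x / 2) = x' at gb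
  have hs2 : s * s = 1 := by
    have := hI g hg a a₂
    rw [ga, gb] at this
    simp [hf.bilinear.add_right, hf.bilinear.smul_left, hf.bilinear.smul_right, hf.alternating, h12]
      at this
    linear_combination this
  obtain ⟨h, hh, ha', hb', hz'⟩ : ∃ h ∈ M, (h : Matrix ι ι F) *ᵥ a = a ∧
      (h : Matrix ι ι F) *ᵥ a₂ = (-x) • a + a₂ ∧
      ∀ z, f z a = 0 → f z a₂ = 0 → (h : Matrix ι ι F) *ᵥ z = z := by
    by_cases h2 : (2 : F) = 0
    · rw [← hx', if_pos h2] at gb
      have hs1 : s = 1 := by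
        have : (s - 1) ^ 2 = 0 := by linear_combination hs2 + (1 - s) * h2
        exact sub_eq_zero.mp (pow_eq_zero_iff two_ne_zero |>.mp this)
      subst hs1
      exact ⟨g, hg, by simpa using ga, by simpa using gb, gz⟩
    · rw [← hx', if_neg h2] at gb
      refine ⟨g * g, M.mul_mem hg hg, ?_, ?_,
        fun z h1 h2 => by rw [Units.val_mul, ← mulVec_mulVec, gz z h1 h2, gz z h1 h2]⟩
      · rw [Units.val_mul, ← mulVec_mulVec, ga, mulVec_smul, ga, smul_smul, hs2, one_smul]
      · rw [Units.val_mul, ← mulVec_mulVec, gb, mulVec_add, mulVec_smul, mulVec_smul, ga, gb]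
        have hx2 : -x / 2 + -x / 2 = -x := by field_simp; ring
        linear_combination (norm := module) hs2 • ((-x / 2 + -x / 2) • a + a₂) + hx2 • a
  have : sympT hf a x = h := by
    apply ext_mulVec
    intro z
    have h0 := hz' (z - f z a₂ • a + f z a • a₂)
      (by rw [hf.bilinear.add_left, sub_left hf, hf.bilinear.smul_left, hf.bilinear.smul_left,
        hf.alternating, h21]; ring)
      (by rw [hf.bilinear.add_left, sub_left hf, hf.bilinear.smul_left, hf.bilinear.smul_left,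
        hf.alternating, h12]; ring)
    rw [mulVec_add, mulVec_sub, mulVec_smul, mulVec_smul, ha', hb'] at h0
    rw [sympT_mulVec]
    linear_combination (norm := module) -h0
  rw [this]; exact hh

include hR hI hT in
/-- A subgroup strictly above the subfield group contains all transvections. -/
theorem sympT_mem_of_not_le {r : ℕ} (hr : r.Prime) (hcard : Fintype.card F = Nat.card F₀ ^ r)
    (hn : 6 ≤ Fintype.card ι) {g : GL ι F} (hg : g ∈ M) (hgH : g ∉ Cfsg.Geo.subfieldSubgroup F₀ 1) :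
    ∀ v c, sympT hf v c ∈ M := by
  classical
  -- an irrational centre
  obtain ⟨v₀, hv₀, hv₀L⟩ : ∃ v : ι → F, Rat F₀ v ∧ ¬ RatLine F₀ ((g : Matrix ι ι F) *ᵥ v) := by
    by_contra hno
    push Not at hno
    exact hgH (mem_subfield_of_ratLine hno)
  set b := (g : Matrix ι ι F) *ᵥ v₀ with hb
  have hbM : sympT hf b 1 ∈ M := by
    rw [hb, ← sympT_conj hf (hI g hg)]
    exact M.mul_mem (M.mul_mem hg (hT v₀ 1 hv₀ F₀.one_mem)) (M.inv_mem hg)
  have hb0 : b ≠ 0 := fun h => hv₀L ⟨0, 0, fun _ => F₀.zero_mem, by rw [h, smul_zero]⟩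
  obtain ⟨a, ha, ha0, σ, hσ, hσM⟩ : ∃ a, Rat F₀ a ∧ a ≠ 0 ∧ ∃ σ, σ ∉ F₀ ∧ sympT hf a σ ∈ M := by
    by_cases hinj : ∀ w, Rat F₀ w → f w b = 0 → w = 0
    · exact long_root_of_injective hf hR hI hT hr hcard hn hbM hb0 hinj
    · push Not at hinj
      obtain ⟨w, hw, hwb, hw0⟩ := hinj
      exact ⟨w, hw, hw0, long_root_of_orth hf hR hT hn one_ne_zero hbM hv₀L hw hw0 hwb⟩
  have hall := long_root_all hf hR hI hT hr hcard ha ha0 hσ hσM
  -- transfer to all rational vectors
  set C : (ι → F) → Prop := fun v => ∀ x, sympT hf v x ∈ M with hC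
  have hmove : ∀ u v, Rat F₀ u → Rat F₀ v → f u v ≠ 0 → C u → C v := by
    intro u v hu hv huv hCu x
    have ht := hT (v - u) (f u v)⁻¹ (hv.sub hu) (F₀.inv_mem (hR _ _ hu hv))
    rw [← sympT_maps hf huv, ← sympT_conj hf (sympT_preserves hf _ _)]
    exact M.mul_mem (M.mul_mem ht (hCu x)) (M.inv_mem ht)
  have hC0 : C 0 := fun x => by rw [sympT_zero_centre]; exact M.one_mem
  have hCrat : ∀ v, Rat F₀ v → C v := by
    intro v hv
    by_cases hv0 : v = 0
    · exact hv0 ▸ hC0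
    obtain ⟨z, hz, hza, hzv⟩ := exists_rat_common (F₀ := F₀) hf ha0 hv0
    exact hmove z v hz hv hzv (hmove a z ha hz (fun h => hza (orth_comm hf h)) hall)
  have hsmul : ∀ (s : F) v, C v → C (s • v) := fun s v hv x => by
    rw [sympT_smul]; exact hv _
  have hadd : ∀ v w (t : F), C v → C w → f v w ≠ 0 → C (v + t • w) := by
    intro v w t hv hw hvw x
    have ht := hw (t / f v w)
    have e : (sympT hf w (t / f v w) : Matrix ι ι F) *ᵥ v = v + t • w := by
      rw [sympT_mulVec, div_mul_cancel₀ _ hvw]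
    rw [← e, ← sympT_conj hf (sympT_preserves hf _ _)]
    exact M.mul_mem (M.mul_mem ht (hv x)) (M.inv_mem ht)
  -- spans of two rational vectors
  have hpair : ∀ e e' (t : F), Rat F₀ e → Rat F₀ e' → C (e + t • e') := by
    intro e e' t he he'
    by_cases hee : f e e' ≠ 0
    · exact hadd e e' t (hCrat e he) (hCrat e' he') hee
    push Not at hee
    by_cases h1 : ∃ s : F, e = s • e'
    · obtain ⟨s, rfl⟩ := h1
      rw [← add_smul]; exact hsmul _ _ (hCrat e' he')
    by_cases h2 : ∃ s : F, e' = s • e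
    · obtain ⟨s, rfl⟩ := h2
      rw [smul_smul, show e + (t * s) • e = (1 + t * s) • e by rw [add_smul, one_smul]]
      exact hsmul _ _ (hCrat e he)
    push Not at h1 h2
    have he0 : e ≠ 0 := fun h => h1 0 (by rw [h, zero_smul])
    have he'0 : e' ≠ 0 := fun h => h2 0 (by rw [h, zero_smul])
    obtain ⟨z₁, hz₁, hz₁e', hz₁e⟩ := exists_rat_perp_sep hf hR he' he'0 h1
    obtain ⟨z₂, hz₂, hz₂e, hz₂e'⟩ := exists_rat_perp_sep hf hR he he0 h2
    set z := (-(f z₁ e)⁻¹) • z₁ + (-(f z₂ e')⁻¹) • z₂ with hz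
    have hzr : Rat F₀ z := (hz₁.smul (F₀.neg_mem (F₀.inv_mem (hR _ _ hz₁ he)))).add
      (hz₂.smul (F₀.neg_mem (F₀.inv_mem (hR _ _ hz₂ he'))))
    have hez : f e z = 1 := by
      rw [hf.skew, hz, hf.bilinear.add_left, hf.bilinear.smul_left, hf.bilinear.smul_left, hz₂e, neg_mul,
        inv_mul_cancel₀ hz₁e]
      ring
    have he'z : f e' z = 1 := by
      rw [hf.skew, hz, hf.bilinear.add_left, hf.bilinear.smul_left, hf.bilinear.smul_left, hz₁e', neg_mul,
        neg_mul, inv_mul_cancel₀ hz₂e']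
      ring
    by_cases ht : t = -1
    · subst ht
      refine hCrat _ (he.add (he'.smul (F₀.neg_mem F₀.one_mem)))
    have h4 : C (e + (1 : F) • z + t • e') :=
      hadd _ _ t (hadd e z 1 (hCrat e he) (hCrat z hzr) (by rw [hez]; exact one_ne_zero)) (hCrat e' he') (by
        rw [hf.bilinear.add_left, hf.bilinear.smul_left, hee, hf.skew z e', he'z]
        simp)
    have h5 := hadd _ z (-1) h4 (hCrat z hzr) (by
      rw [hf.bilinear.add_left, hf.bilinear.add_left, hf.bilinear.smul_left, hf.bilinear.smul_left,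
        hez, he'z, hf.alternating, mul_zero, add_zero, mul_one]
      exact fun h => ht (by linear_combination h))
    convert h5 using 1
    module
  -- everything
  have h4 : 4 ≤ Fintype.card F := by
    rw [hcard]
    calc 4 = 2 ^ 2 := by norm_num
      _ ≤ Nat.card F₀ ^ 2 := Nat.pow_le_pow_left Finite.one_lt_card 2
      _ ≤ Nat.card F₀ ^ r := Nat.pow_le_pow_right Nat.card_pos hr.two_le
  have hstep : ∀ v e (t : F), C v → Rat F₀ e → C (v + t • e) := by
    intro v e t hv he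
    by_cases hve : f v e ≠ 0
    · exact hadd v e t hv (hCrat e he) hve
    push Not at hve
    by_cases hv0 : v = 0
    · rw [hv0, zero_add]; exact hsmul t e (hCrat e he)
    by_cases he0 : e = 0
    · rw [he0, smul_zero, add_zero]; exact hv
    by_cases hsum : v + t • e = 0
    · rw [hsum]; exact hC0
    obtain ⟨x, hx, hxv, hxe⟩ := exists_rat_common (F₀ := F₀) hf hv0 he0
    obtain ⟨y, hy, hy3⟩ := exists_rat_pair_ne (F₀ := F₀) hf hsum
    obtain ⟨z, hzC, hzv, hze, hzs⟩ : ∃ z, C z ∧ f z v ≠ 0 ∧ f z e ≠ 0 ∧ f z (v + t • e) ≠ 0 := by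
      by_cases hx3 : f x (v + t • e) ≠ 0
      · exact ⟨x, hCrat x hx, hxv, hxe, hx3⟩
      push Not at hx3
      obtain ⟨c, hc⟩ : ∃ c : F, c ∉ ({0, -(f x v) / f y v, -(f x e) / f y e} : Finset F) := by
        refine Finset.exists_mem_notMem_of_card_lt_card (t := Finset.univ) ?_ |>.imp fun c hc => hc.2
        rw [Finset.card_univ]
        exact lt_of_le_of_lt Finset.card_le_three (by omega)
      simp only [Finset.mem_insert, Finset.mem_singleton, not_or] at hc
      refine ⟨x + c • y, hpair x y c hx hy, ?_, ?_, ?_⟩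
      · rw [hf.bilinear.add_left, hf.bilinear.smul_left]
        intro h
        by_cases hyv : f y v = 0
        · rw [hyv, mul_zero, add_zero] at h; exact hxv h
        · exact hc.2.1 (by rw [eq_div_iff hyv]; linear_combination h)
      · rw [hf.bilinear.add_left, hf.bilinear.smul_left]
        intro h
        by_cases hye : f y e = 0
        · rw [hye, mul_zero, add_zero] at h; exact hxe h
        · exact hc.2.2 (by rw [eq_div_iff hye]; linear_combination h)
      · rw [hf.bilinear.add_left, hf.bilinear.smul_left, hx3, zero_add]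
        exact mul_ne_zero hc.1 hy3
    have hvz : f v z ≠ 0 := fun h => hzv (orth_comm hf h)
    have h1 : C (z + t • e) := hadd z e t hzC (hCrat e he) hze
    have h2 : C (v + (1 : F) • (z + t • e)) := hadd v _ 1 hv h1 (by
      rw [hf.bilinear.add_right, hf.bilinear.smul_right, hve, mul_zero, add_zero]; exact hvz)
    have h3 := hadd _ z (-1) h2 hzC (by
      rw [one_smul, ← add_assoc, add_comm v z, add_assoc, hf.bilinear.add_left, hf.alternating, zero_add]
      exact fun h => hzs (orth_comm hf h))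
    convert h3 using 1
    module
  have hsum : ∀ (v : ι → F) (S : Finset ι), C (∑ i ∈ S, v i • Pi.single i (1 : F)) := by
    intro v S
    induction S using Finset.induction_on with
    | empty => simpa using hC0
    | @insert i S hi ih =>
      rw [Finset.sum_insert hi, add_comm]
      exact hstep _ _ _ ih (rat_single i)
  intro v c
  have := hsum v Finset.univ c
  rwa [← pi_eq_sum_univ' v] at this

omit [Fintype F] in
theorem sympT_rat_mem_subfield {v : ι → F} {c : F} (hR : RatForm f F₀) (hv : Rat F₀ v) (hc : c ∈ F₀) :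
    sympT hf v c ∈ Cfsg.Geo.subfieldSubgroup F₀ 1 :=
  mem_subfield_of_ratLine fun w hw => ⟨1, _, hw.add (hv.smul (F₀.mul_mem hc (hR _ _ hw hv))),
    by rw [one_smul, sympT_mulVec]⟩

/-- The subfield subgroups are maximal in the symplectic group. -/
theorem subfield_maximal_spGL {m : ℕ} (hm : 3 ≤ m) {r : ℕ} (hr : r.Prime)
    (hcard : Fintype.card F = Nat.card F₀ ^ r) (P : GL (Fin m ⊕ Fin m) F) {ζ : F} (hζ : ζ ≠ 0)
    (hP : Cfsg.Geo.IsFormRationalStructure (Cfsg.sympForm m F) F₀ ζ P) :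
    Cfsg.Geo.IsMaximalIn (Cfsg.spGL m F) (Cfsg.Geo.subfieldSubgroup F₀ P ⊓ Cfsg.spGL m F) := by
  classical
  have hstd := CfsgLib.SympFormStd.isSymplecticForm m F
  set s₀ := Cfsg.sympForm m F with hs₀
  let f : (Fin m ⊕ Fin m → F) → (Fin m ⊕ Fin m → F) → F :=
    fun x y => ζ * s₀ ((P : Matrix (Fin m ⊕ Fin m) (Fin m ⊕ Fin m) F) *ᵥ x) ((P : Matrix (Fin m ⊕ Fin m) (Fin m ⊕ Fin m) F) *ᵥ y)
  have hPinj : ∀ v : Fin m ⊕ Fin m → F, v ≠ 0 → (P : Matrix (Fin m ⊕ Fin m) (Fin m ⊕ Fin m) F) *ᵥ v ≠ 0 := fun v hv h => hv (by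
    have := congrArg (((P⁻¹ : GL (Fin m ⊕ Fin m) F) : Matrix (Fin m ⊕ Fin m) (Fin m ⊕ Fin m) F) *ᵥ ·) h
    rwa [inv_mulVec_mulVec, mulVec_zero] at this)
  have hf : Cfsg.Geo.IsSymplecticForm f :=
    { bilinear :=
      { add_left := fun x y v => by simp [f, mulVec_add, hstd.bilinear.add_left, mul_add]
        smul_left := fun c x v => by simp [f, mulVec_smul, hstd.bilinear.smul_left]; ring
        add_right := fun v x y => by simp [f, mulVec_add, hstd.bilinear.add_right, mul_add]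
        smul_right := fun c v x => by simp [f, mulVec_smul, hstd.bilinear.smul_right]; ring }
      skew := fun v w => by simp [f]; rw [hstd.skew]; ring
      alternating := fun v => by simp [f, hstd.alternating]
      nondegenerate := fun v hv => by
        obtain ⟨⟨x, hx⟩, ⟨y, hy⟩⟩ := hstd.nondegenerate _ (hPinj v hv)
        refine ⟨⟨((P⁻¹ : GL (Fin m ⊕ Fin m) F) : Matrix (Fin m ⊕ Fin m) (Fin m ⊕ Fin m) F) *ᵥ x, ?_⟩, ⟨((P⁻¹ : GL (Fin m ⊕ Fin m) F) : Matrix (Fin m ⊕ Fin m) (Fin m ⊕ Fin m) F) *ᵥ y, ?_⟩⟩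
        · simp only [f, mulVec_inv_mulVec]; exact mul_ne_zero hζ hx
        · simp only [f, mulVec_inv_mulVec]; exact mul_ne_zero hζ hy }
  have hR : RatForm f F₀ := fun u v hu hv => hP u v hu hv
  have hF : F₀ ≠ ⊤ := by
    intro h
    have e : Nat.card F₀ = Fintype.card F := by
      rw [h, Nat.card_congr Subfield.topEquiv.toEquiv, Nat.card_eq_fintype_card]
    rw [e] at hcard
    have := lt_self_pow₀ (Fintype.one_lt_card (α := F)) hr.one_lt
    omega
  have hn : 6 ≤ Fintype.card (Fin m ⊕ Fin m) := by simp; omega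
  refine ⟨lt_of_le_of_ne inf_le_right fun h => ?_, fun M hHM hMS => ?_⟩
  · exact CfsgLib.Aschbacher.Symp.not_le_subfieldSubgroup hstd
      (fun v c => CfsgLib.SympFormStd.sympT_mem_spGL v c) (by omega) hF P (h ▸ inf_le_left)
  by_cases hle : M ≤ Cfsg.Geo.subfieldSubgroup F₀ P
  · exact Or.inl (le_antisymm (le_inf hle hMS) hHM)
  refine Or.inr (le_antisymm hMS ?_)
  obtain ⟨g, hg, hgH⟩ := SetLike.not_le_iff_exists.mp hle
  set c := (MulAut.conj P).toMonoidHom with hc
  have hconj : ∀ x : GL (Fin m ⊕ Fin m) F, (∀ u v, f ((x : Matrix (Fin m ⊕ Fin m) (Fin m ⊕ Fin m) F) *ᵥ u) ((x : Matrix (Fin m ⊕ Fin m) (Fin m ⊕ Fin m) F) *ᵥ v) = f u v) ↔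
      c x ∈ Cfsg.spGL m F := by
    intro x
    rw [CfsgLib.SympFormStd.mem_spGL]
    have e : ∀ u, (c x : GL (Fin m ⊕ Fin m) F).val *ᵥ ((P : Matrix (Fin m ⊕ Fin m) (Fin m ⊕ Fin m) F) *ᵥ u) = (P : Matrix (Fin m ⊕ Fin m) (Fin m ⊕ Fin m) F) *ᵥ ((x : Matrix (Fin m ⊕ Fin m) (Fin m ⊕ Fin m) F) *ᵥ u) := by
      intro u
      rw [hc, MulEquiv.coe_toMonoidHom, MulAut.conj_apply, Units.val_mul, Units.val_mul, ← mulVec_mulVec,
        ← mulVec_mulVec, inv_mulVec_mulVec]
    constructor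
    · intro h u v
      have := h (((P⁻¹ : GL (Fin m ⊕ Fin m) F) : Matrix (Fin m ⊕ Fin m) (Fin m ⊕ Fin m) F) *ᵥ u) (((P⁻¹ : GL (Fin m ⊕ Fin m) F) : Matrix (Fin m ⊕ Fin m) (Fin m ⊕ Fin m) F) *ᵥ v)
      simp only [f, ← e, mulVec_inv_mulVec] at this
      exact mul_left_cancel₀ hζ this
    · intro h u v
      simp only [f, ← e, h, s₀]
  have key : ∀ v d, sympT hf v d ∈ M.comap c := by
    refine sympT_mem_of_not_le hf hR (fun x hx => (hconj x).2 (hMS hx)) (fun v d hv hd => ?_) hr hcard hn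
      (g := P⁻¹ * g * P) ?_ ?_
    · refine hHM ⟨?_, (hconj _).1 (sympT_preserves hf v d)⟩
      exact Subgroup.mem_map.mpr ⟨_, by
        simpa [Cfsg.Geo.subfieldSubgroup] using sympT_rat_mem_subfield hf hR hv hd, rfl⟩
    · simpa [c, ← mul_assoc] using hg
    · intro hmem
      apply hgH
      simp only [Cfsg.Geo.subfieldSubgroup, Subgroup.mem_map] at hmem ⊢
      obtain ⟨y, hy, hye⟩ := hmem
      exact ⟨y, hy, by simp_all [mul_assoc]⟩
  intro x hx
  have hx' : P⁻¹ * x * P ∈ M.comap c :=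
    mem_of_preserves hf _ key _ ((hconj _).2 (by simpa [c, ← mul_assoc] using hx))
  simpa [c, mul_assoc] using hx'

end CfsgLib.Subfield54.Sp
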