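import Mathlib
import Cfsg.Agent.Subfield54.SL
import Cfsg.Agent.Classical.UnitCentres

/-!
Root elements at a rational isotropic vector of a hermitian form.
-/

set_option autoImplicit false

namespace CfsgLib.Subfield54.SU

open Matrix CfsgLib.TransvGL CfsgLib.UnitCentres

variable {ι : Type} [Fintype ι] [DecidableEq ι] {F : Type*} [Field F] {F₀ : Subfield F}
variable {σ : F ≃+* F} {f : (ι → F) → (ι → F) → F}

/-- The data of a rational hermitian structure. -/
structure RatData (σ : F ≃+* F) (f : (ι → F) → (ι → F) → F) (F₀ : Subfield F)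
    (M : Subgroup (GL ι F)) (δ : F) : Prop where
  herm : Cfsg.Geo.IsUnitaryForm σ f
  rat : ∀ u v, Rat F₀ u → Rat F₀ v → f u v ∈ F₀
  conj_mem : ∀ x ∈ F₀, σ x ∈ F₀
  delta_mem : δ ∈ F₀
  delta_ne : δ ≠ 0
  delta_tr : δ + σ δ = 0
  conj_ne : ∃ z ∈ F₀, σ z ≠ z
  iso : ∀ g ∈ M, Iso f g
  rat_mem : ∀ g : GL ι F, Iso f g → g ∈ Cfsg.Geo.specialLinear ι F →
    (∀ x, Rat F₀ x → Rat F₀ ((g : Matrix ι ι F) *ᵥ x)) → g ∈ M

theorem neg_left (hf : Cfsg.Geo.IsUnitaryForm σ f) (x y : ι → F) : f (-x) y = -f x y := by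
  simpa using hf.smul_left (-1) x y

theorem neg_right (hf : Cfsg.Geo.IsUnitaryForm σ f) (x y : ι → F) : f x (-y) = -f x y := by
  simpa using smul_right hf (-1) x y

theorem pair_inj (hf : Cfsg.Geo.IsUnitaryForm σ f) {u v : ι → F} (h : ∀ x, f x u = f x v) : u = v := by
  by_contra hne
  obtain ⟨⟨x, hx⟩, -⟩ := hf.nondegenerate (u - v) (sub_ne_zero.2 hne)
  exact hx (by rw [sub_right hf, h x, sub_self])

theorem pair_ne_zero (hf : Cfsg.Geo.IsUnitaryForm σ f) {u : ι → F} (hu : u ≠ 0) : upair hf u ≠ 0 :=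
  fun h => hu (pair_inj hf fun x => by rw [zero_right hf, ← upair_apply hf u, h]; rfl)

/-- The displacement of a root element at `a`. -/
def rootFun (f : (ι → F) → (ι → F) → F) (a v : ι → F) (z : F) (x : ι → F) : ι → F :=
  x + f x v • a - f x a • v + (z * f x a) • a

/-- A root element with these parameters lies in `M`. -/
def YMem (f : (ι → F) → (ι → F) → F) (M : Subgroup (GL ι F)) (a v : ι → F) (z : F) : Prop :=
  f v a = 0 ∧ ∃ g ∈ M, ∀ x, (g : Matrix ι ι F) *ᵥ x = rootFun f a v z x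

/-- A transvection with centre `v` and coefficient `c` lies in `M`. -/
def TMem (f : (ι → F) → (ι → F) → F) (M : Subgroup (GL ι F)) (v : ι → F) (c : F) : Prop :=
  f v v = 0 ∧ ∃ g ∈ M, ∀ x, (g : Matrix ι ι F) *ᵥ x = x + (c * f x v) • v

variable {M : Subgroup (GL ι F)} {δ : F}

theorem TMem.conj {v : ι → F} {c : F} (h : TMem f M v c) {g : GL ι F} (hg : g ∈ M) (hi : Iso f g) :
    TMem f M ((g : Matrix ι ι F) *ᵥ v) c := by
  obtain ⟨hv, t, ht, htx⟩ := h
  refine ⟨by rw [hi]; exact hv, g * t * g⁻¹, M.mul_mem (M.mul_mem hg ht) (M.inv_mem hg), fun x => ?_⟩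
  rw [Units.val_mul, Units.val_mul, ← mulVec_mulVec, ← mulVec_mulVec, htx, mulVec_add, mulVec_smul,
    mulVec_inv_mulVec]
  conv_rhs => rw [← mulVec_inv_mulVec g x, hi]
  rw [mulVec_inv_mulVec]

theorem TMem.centre {hf : Cfsg.Geo.IsUnitaryForm σ f} {v : ι → F} (hv : f v v = 0)
    (h : ∀ c, c + σ c = 0 → TMem f M v c) : Centre hf M v :=
  ⟨hv, fun c hc => by
    obtain ⟨-, g, hg, hgx⟩ := h c hc
    rwa [show uT hf hv c = g from ext_mulVec fun x => by rw [uT_mulVec, hgx]]⟩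

theorem TMem.of_centre {hf : Cfsg.Geo.IsUnitaryForm σ f} {v : ι → F} (h : Centre hf M v) {c : F}
    (hc : c + σ c = 0) : TMem f M v c :=
  ⟨h.1, _, h.2 c hc, uT_mulVec hf h.1 c⟩

theorem TMem.smul (hf : Cfsg.Geo.IsUnitaryForm σ f) {v : ι → F} {c : F} (s : F) (h : TMem f M v (c * (s * σ s))) :
    TMem f M (s • v) c := by
  obtain ⟨hv, g, hg, hgx⟩ := h
  refine ⟨by rw [hf.smul_left, smul_right hf, hv, mul_zero, mul_zero], g, hg, fun x => ?_⟩
  rw [hgx, smul_right hf, smul_smul]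
  congr 2; ring

theorem TMem.neg (hf : Cfsg.Geo.IsUnitaryForm σ f) {v : ι → F} {c : F} (h : TMem f M v c) :
    TMem f M v (-c) := by
  obtain ⟨hv, g, hg, hgx⟩ := h
  refine ⟨hv, g⁻¹, M.inv_mem hg, fun x => ?_⟩
  have h1 := congrArg (((g⁻¹ : GL ι F) : Matrix ι ι F) *ᵥ ·) (hgx (x + (-c * f x v) • v))
  simp only [inv_mulVec_mulVec] at h1
  conv_rhs => rw [h1]
  congr 1
  rw [hf.add_left, hf.smul_left, hv]
  module

variable (D : RatData σ f F₀ M δ)

include D in
theorem tmem_rat {v : ι → F} {c : F} (hv : Rat F₀ v) (hiso : f v v = 0) (hc : c ∈ F₀)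
    (hct : c + σ c = 0) : TMem f M v c := by
  refine ⟨hiso, uT D.herm hiso c, D.rat_mem _ (uT_iso D.herm hiso hct) (uT_mem_specialLinear _ _ _)
    (fun x hx => ?_), uT_mulVec D.herm hiso c⟩
  rw [uT_mulVec]
  exact hx.add (hv.smul (F₀.mul_mem hc (D.rat _ _ hx hv)))

include D in
theorem ymem_rat {a v : ι → F} {z : F} (ha : Rat F₀ a) (haa : f a a = 0) (hv : Rat F₀ v)
    (hva : f v a = 0) (hz : z ∈ F₀) (hzv : z + σ z + f v v = 0) : YMem f M a v z := by
  have hf := D.herm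
  have hav : f a v = 0 := orth_comm hf hva
  let φ₁ : Module.Dual F (ι → F) := -upair hf a
  let φ₂ : Module.Dual F (ι → F) := upair hf v + (z + f v v) • upair hf a
  have h1 : φ₁ v = 0 := by simp [φ₁, hva]
  have h2 : φ₂ a = 0 := by simp [φ₂, hav, haa]
  have hx : ∀ x, (transv h2 * transv h1 : GL ι F).val *ᵥ x = rootFun f a v z x := fun x => by
    rw [Units.val_mul, ← mulVec_mulVec, transv_mulVec, transv_mulVec]
    simp [φ₁, φ₂, rootFun, hf.add_left, hf.smul_left, neg_left hf, hva]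
    module
  refine ⟨hva, _, D.rat_mem _ (fun x y => ?_)
    ((Cfsg.Geo.specialLinear ι F).mul_mem (transv_mem_specialLinear _) (transv_mem_specialLinear _))
    (fun x hxr => ?_), hx⟩
  · rw [hx, hx]
    simp [rootFun, sub_eq_add_neg, hf.add_left, add_right hf, hf.smul_left, smul_right hf, neg_left hf,
      neg_right hf, haa, hva, hav, map_mul, ← hf.herm a y, ← hf.herm v y]
    linear_combination f x a * f a y * hzv
  · rw [hx]
    exact ((hxr.add (ha.smul (D.rat _ _ hxr hv))).sub (hv.smul (D.rat _ _ hxr ha))).add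
      (ha.smul (F₀.mul_mem hz (D.rat _ _ hxr ha)))

theorem rootFun_root (hf : Cfsg.Geo.IsUnitaryForm σ f) {a v v' : ι → F} (haa : f a a = 0)
    (hva : f v a = 0) (hva' : f v' a = 0) (z z' : F) (x : ι → F) :
    rootFun f a v z (rootFun f a v' z' x) = rootFun f a (v + v') (z + z' - f v' v) x := by
  simp [rootFun, sub_eq_add_neg, hf.add_left, add_right hf, hf.smul_left, neg_left hf, haa, hva',
    orth_comm hf hva]
  module

theorem YMem.mul (hf : Cfsg.Geo.IsUnitaryForm σ f) {a v v' : ι → F} {z z' : F} (haa : f a a = 0)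
    (h : YMem f M a v z) (h' : YMem f M a v' z') : YMem f M a (v + v') (z + z' - f v' v) := by
  obtain ⟨hva, g, hg, hgx⟩ := h
  obtain ⟨hva', g', hg', hgx'⟩ := h'
  refine ⟨by rw [hf.add_left, hva, hva', add_zero], g * g', M.mul_mem hg hg', fun x => ?_⟩
  rw [Units.val_mul, ← mulVec_mulVec, hgx', hgx, rootFun_root hf haa hva hva']

theorem YMem.inv (hf : Cfsg.Geo.IsUnitaryForm σ f) {a v : ι → F} {z : F} (haa : f a a = 0)
    (h : YMem f M a v z) : YMem f M a (-v) (-z - f v v) := by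
  obtain ⟨hva, g, hg, hgx⟩ := h
  refine ⟨by rw [neg_left hf, hva, neg_zero], g⁻¹, M.inv_mem hg, fun x => ?_⟩
  have h1 := congrArg (((g⁻¹ : GL ι F) : Matrix ι ι F) *ᵥ ·) (hgx (rootFun f a (-v) (-z - f v v) x))
  simp only [inv_mulVec_mulVec, rootFun_root hf haa hva (show f (-v) a = 0 by rw [neg_left hf, hva, neg_zero])]
    at h1
  rw [h1]
  congr 1
  simp [rootFun, zero_right hf, neg_left hf]
  left; left; ring

theorem YMem.conj (hf : Cfsg.Geo.IsUnitaryForm σ f) {a v : ι → F} {z : F} (h : YMem f M a v z)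
    {g : GL ι F} (hg : g ∈ M) (hi : Iso f g) (hga : (g : Matrix ι ι F) *ᵥ a = a) :
    YMem f M a ((g : Matrix ι ι F) *ᵥ v) z := by
  obtain ⟨hva, t, ht, htx⟩ := h
  refine ⟨?_, g * t * g⁻¹, M.mul_mem (M.mul_mem hg ht) (M.inv_mem hg), fun x => ?_⟩
  · conv_lhs => arg 2; rw [← hga]
    rw [hi, hva]
  rw [Units.val_mul, Units.val_mul, ← mulVec_mulVec, ← mulVec_mulVec, htx]
  set y := ((g⁻¹ : GL ι F) : Matrix ι ι F) *ᵥ x with hy
  have hx : x = (g : Matrix ι ι F) *ᵥ y := by rw [hy, mulVec_inv_mulVec]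
  have e1 : f x ((g : Matrix ι ι F) *ᵥ v) = f y v := by rw [hx, hi]
  have e2 : f x a = f y a := by
    conv_lhs => rw [hx, ← hga]
    rw [hi]
  unfold rootFun
  rw [e1, e2]
  conv_rhs => rw [hx]
  simp only [mulVec_add, mulVec_sub, mulVec_smul, hga]

/-- Two root elements give a long root element. -/
theorem YMem.commutator (hf : Cfsg.Geo.IsUnitaryForm σ f) {a v v' : ι → F} {z z' : F}
    (haa : f a a = 0) (h : YMem f M a v z) (h' : YMem f M a v' z') :
    TMem f M a (f v v' - f v' v) := by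
  have hva := h.1
  have hva' := h'.1
  obtain ⟨-, g, hg, hgx⟩ := h.mul hf haa h'
  obtain ⟨-, g', hg', hgx'⟩ := (h'.mul hf haa h).inv hf haa
  refine ⟨haa, g * g', M.mul_mem hg hg', fun x => ?_⟩
  rw [Units.val_mul, ← mulVec_mulVec, hgx', hgx,
    rootFun_root hf haa (by rw [hf.add_left, hva, hva', add_zero])
      (by rw [neg_left hf, hf.add_left, hva', hva, add_zero, neg_zero])]
  simp [rootFun, hf.add_left, add_right hf, neg_left hf, neg_right hf, add_comm v' v, zero_right hf]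
  module

/-- Two nearby transvections give a root element. -/
theorem YMem.of_pair (hf : Cfsg.Geo.IsUnitaryForm σ f) {a b : ι → F} {c lam : F} (hc : c + σ c = 0)
    (haa : f a a = 0) (hba : f b a = 0) (h : TMem f M (b + lam • a) c) (h' : TMem f M b c) :
    YMem f M a ((-(c * σ lam)) • b) (c * lam * σ lam) := by
  obtain ⟨-, g, hg, hgx⟩ := h
  have hbb := h'.1
  obtain ⟨-, g', hg', hgx'⟩ := h'.neg hf
  refine ⟨by rw [hf.smul_left, hba, mul_zero], g * g', M.mul_mem hg hg', fun x => ?_⟩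
  have hσc : σ c = -c := by linear_combination hc
  rw [Units.val_mul, ← mulVec_mulVec, hgx', hgx]
  simp [rootFun, sub_eq_add_neg, hf.add_left, add_right hf, hf.smul_left, smul_right hf, neg_left hf,
    neg_right hf, hba, hbb, hσc, hf.involutive, orth_comm hf hba]
  module

include D in
theorem exists_trace_rat {r : F} (hr : r ∈ F₀) (hσr : σ r = r) : ∃ t ∈ F₀, t + σ t = r := by
  have hf := D.herm
  obtain ⟨y, hy, hy0⟩ : ∃ y ∈ F₀, y + σ y ≠ 0 := by
    obtain ⟨z, hz, hzne⟩ := D.conj_ne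
    by_cases h1 : (1 : F) + σ 1 = 0
    · refine ⟨z, hz, fun h => hzne ?_⟩
      rw [map_one] at h1
      linear_combination h - z * h1
    · exact ⟨1, F₀.one_mem, h1⟩
  refine ⟨r * (y / (y + σ y)), F₀.mul_mem hr (F₀.div_mem hy (F₀.add_mem hy (D.conj_mem _ hy))), ?_⟩
  rw [map_mul, hσr, map_div₀, map_add, hf.involutive, add_comm (σ y) y, ← mul_add, ← add_div,
    div_self hy0, mul_one]

include D in
theorem exists_root_rat {a v : ι → F} (ha : Rat F₀ a) (haa : f a a = 0) (hv : Rat F₀ v)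
    (hva : f v a = 0) : ∃ z, YMem f M a v z := by
  obtain ⟨z, hz, hzt⟩ := exists_trace_rat D (F₀.neg_mem (D.rat _ _ hv hv))
    (by rw [map_neg, norm_fixed D.herm])
  exact ⟨z, ymem_rat D ha haa hv hva hz (by rw [hzt]; ring)⟩

include D in
/-- An irrational root element gives an irrational long root element. -/
theorem long_root_of_root {a v w : ι → F} {z : F} (ha : Rat F₀ a) (haa : f a a = 0)
    (h : YMem f M a v z) (hw : Rat F₀ w) (hwa : f w a = 0) (hs : f v w ∉ F₀) :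
    ∃ ν, ν ∉ F₀ ∧ ν + σ ν = 0 ∧ ∀ x ∈ F₀, σ x = x → TMem f M a (x * ν) := by
  have hf := D.herm
  by_contra hno
  have key : ∀ t ∈ F₀, f v w * t - σ (f v w * t) ∈ F₀ := by
    intro t₀ ht₀
    by_contra hc
    refine hno ⟨_, hc, by rw [map_sub, hf.involutive]; ring, fun x hx hσx => ?_⟩
    have ht : x * t₀ ∈ F₀ := F₀.mul_mem hx ht₀
    have hw' := hw.smul (D.conj_mem _ ht)
    obtain ⟨z', hY⟩ := exists_root_rat D ha haa hw' (by rw [hf.smul_left, hwa, mul_zero])
    have h1 := h.commutator hf haa hY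
    rw [smul_right hf, hf.smul_left, hf.involutive, hf.herm w v] at h1
    convert h1 using 1
    simp only [map_mul, hσx]
    ring
  obtain ⟨t, ht, htne⟩ := D.conj_ne
  have h1 := key 1 F₀.one_mem
  rw [mul_one] at h1
  have h2 := key t ht
  apply hs
  have e : f v w = ((f v w * t - σ (f v w * t)) - σ t * (f v w - σ (f v w))) / (t - σ t) := by
    rw [eq_div_iff (sub_ne_zero.2 (Ne.symm htne)), map_mul]; ring
  rw [e]
  exact F₀.div_mem (F₀.sub_mem h2 (F₀.mul_mem (D.conj_mem t ht) h1)) (F₀.sub_mem ht (D.conj_mem t ht))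

include D in
theorem ratD_upair {b : ι → F} (hb : Rat F₀ b) : RatD F₀ (upair D.herm b) :=
  fun i => D.rat _ _ (rat_single i) hb

include D in
theorem exists_rat_pair_ne {b : ι → F} (hb : b ≠ 0) : ∃ x : ι → F, Rat F₀ x ∧ f x b ≠ 0 := by
  obtain ⟨i, hi⟩ := exists_ne_zero_of_ne_zero (pair_ne_zero D.herm hb)
  exact ⟨_, rat_single i, hi⟩

include D in
theorem rat_of_pair [Fintype F] {u : ι → F} (hu : ∀ i, f (Pi.single i 1) u ∈ F₀) : Rat F₀ u := by
  have hf := D.herm
  have hc : ∀ v : ι → F₀, Rat F₀ (fun i => (v i : F)) := fun v i => (v i).2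
  let L : (ι → F₀) → (ι → F₀) := fun v i =>
    ⟨f (Pi.single i 1) (fun j => (v j : F)), D.rat _ _ (rat_single i) (hc v)⟩
  have hext : ∀ {u v : ι → F}, (∀ i, f (Pi.single i 1) u = f (Pi.single i 1) v) → u = v := by
    intro u v h
    refine pair_inj hf fun x => ?_
    rw [← upair_apply hf u, ← upair_apply hf v, dual_apply_eq_sum, dual_apply_eq_sum (upair hf v)]
    exact Finset.sum_congr rfl fun i _ => by rw [upair_apply, upair_apply, h i]
  have hL : Function.Injective L := fun v w hvw => funext fun i => Subtype.ext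
    (congrFun (hext fun j => congrArg Subtype.val (congrFun hvw j)) i)
  obtain ⟨v, hv⟩ := (Finite.injective_iff_surjective.mp hL) fun i => ⟨_, hu i⟩
  rw [show u = fun j => (v j : F) from hext fun i => (congrArg Subtype.val (congrFun hv i)).symm]
  exact hc v

include D in
theorem exists_rat_perp_sep {a b : ι → F} (hb : Rat F₀ b) (hb0 : b ≠ 0) (hab : ∀ s : F, a ≠ s • b) :
    ∃ z, Rat F₀ z ∧ f z b = 0 ∧ f z a ≠ 0 := by
  by_contra hno
  push Not at hno
  obtain ⟨s, hs⟩ := mem_dual_line_of_forall (ψ := upair D.herm a) (ratD_upair D hb)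
    (pair_ne_zero D.herm hb0) hno
  refine hab (σ s) (pair_inj D.herm fun x => ?_)
  rw [smul_right D.herm, D.herm.involutive]
  exact LinearMap.congr_fun hs x

include D in
/-- A transvection of `M` with irrational centre orthogonal to a rational isotropic vector. -/
theorem long_root_of_orth [Fintype F] {a b : ι → F} {c : F} (hc0 : c ≠ 0) (hct : c + σ c = 0)
    (hbM : TMem f M b c) (hbL : ¬ RatLine F₀ b) (ha : Rat F₀ a) (ha0 : a ≠ 0) (haa : f a a = 0)
    (hab : f a b = 0) :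
    ∃ ν, ν ∉ F₀ ∧ ν + σ ν = 0 ∧ ∀ x ∈ F₀, σ x = x → TMem f M a (x * ν) := by
  have hf := D.herm
  obtain ⟨w₀, hw₀, hw₀a, hw₀b⟩ := exists_rat_perp_sep D ha ha0
    (a := b) fun s hs => hbL ⟨s, a, ha, hs⟩
  obtain ⟨z₀, hY₀⟩ := exists_root_rat D ha haa hw₀ hw₀a
  obtain ⟨-, g₀, hg₀, hg₀x⟩ := hY₀
  set lam := f b w₀ with hlam
  have hlam0 : lam ≠ 0 := fun h => hw₀b (orth_comm hf h)
  have hba : f b a = 0 := orth_comm hf hab
  have hbb := hbM.1
  have hgb : (g₀ : Matrix ι ι F) *ᵥ b = b + lam • a := by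
    rw [hg₀x]; simp [rootFun, hba, hlam]
  have hmove := hbM.conj hg₀ (D.iso _ hg₀)
  rw [hgb] at hmove
  have hY := YMem.of_pair hf hct haa hba hmove hbM
  set μ := -(c * σ lam) with hμ
  have hμ0 : μ ≠ 0 := neg_ne_zero.2 (mul_ne_zero hc0 fun h => hlam0 (by simpa using h))
  by_cases hall : ∃ w, Rat F₀ w ∧ f w a = 0 ∧ f (μ • b) w ∉ F₀
  · obtain ⟨w, hw, hwa, hwσ⟩ := hall
    exact long_root_of_root D ha haa hY hw hwa hwσ
  push Not at hall
  obtain ⟨y₁, hy₁, hy₁a⟩ := exists_rat_pair_ne D ha0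
  set e := (f y₁ a)⁻¹ • y₁ with he
  have her : Rat F₀ e := hy₁.smul (F₀.inv_mem (D.rat _ _ hy₁ ha))
  have hea : f e a = 1 := by rw [he, hf.smul_left, inv_mul_cancel₀ hy₁a]
  have hae : f a e = 1 := by rw [hf.herm, hea, map_one]
  set u := μ • b - f (μ • b) e • a with hu
  have hur : Rat F₀ u := rat_of_pair D fun i => by
    set x : ι → F := Pi.single i 1
    have hx : Rat F₀ x := rat_single i
    have h := D.conj_mem _ (hall (x - f x a • e) (hx.sub (her.smul (D.rat _ _ hx ha)))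
      (by rw [sub_left hf, hf.smul_left, hea, mul_one, sub_self]))
    rw [← hf.herm, sub_left hf, hf.smul_left, hf.herm e (μ • b)] at h
    rw [hu, sub_right hf, smul_right hf _ x a]
    convert h using 2
    ring
  set β := f (μ • b) e with hβ
  have hμb : μ • b = u + β • a := by rw [hu]; abel
  have hua : f u a = 0 := by
    rw [hu, sub_left hf, hf.smul_left, hf.smul_left, hba, haa]; ring
  have huu : f u u = 0 := by
    simp [hu, sub_left hf, sub_right hf, hf.smul_left, smul_right hf, hbb, hba, hab, haa]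
  have hβF : β ∉ F₀ := fun h => hbL ⟨μ⁻¹, u + β • a, hur.add (ha.smul h),
    by rw [← hμb, inv_smul_smul₀ hμ0]⟩
  have huw : f u w₀ = μ * lam := by
    rw [hu, sub_left hf, hf.smul_left, hf.smul_left, orth_comm hf hw₀a, mul_zero, sub_zero, ← hlam]
  have hdF : μ * lam ∈ F₀ := huw ▸ D.rat _ _ hur hw₀
  set c' := c / (μ * σ μ) with hc'
  have hσc : σ c = -c := by linear_combination hct
  have hσl0 : σ lam ≠ 0 := fun h => hlam0 (by simpa using h)
  have hc'eq : c' = (σ (μ * lam))⁻¹ * (-1) := by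
    rw [hc', hμ, map_mul, map_neg, map_mul, hσc, hf.involutive]
    field_simp
  have hc'F : c' ∈ F₀ := by
    rw [hc'eq]
    exact F₀.mul_mem (F₀.inv_mem (D.conj_mem _ hdF)) (F₀.neg_mem F₀.one_mem)
  have hc't : c' + σ c' = 0 := by
    rw [hc', map_div₀, map_mul, hf.involutive, hσc, mul_comm (σ μ) μ, neg_div, add_neg_cancel]
  have hbig : TMem f M (μ • b) c' := by
    refine TMem.smul hf μ ?_
    rwa [hc', div_mul_cancel₀ _ (mul_ne_zero hμ0 fun h => hμ0 (by simpa using h))]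
  rw [hμb] at hbig
  have hY' := YMem.of_pair hf hc't haa hua hbig (tmem_rat D hur huu hc'F hc't)
  refine long_root_of_root D ha haa hY' hw₀ hw₀a fun hmem => hβF ?_
  rw [hf.smul_left, huw] at hmem
  have h2 := F₀.div_mem hmem hdF
  have hμl : μ * lam ≠ 0 := mul_ne_zero hμ0 hlam0
  rw [mul_div_cancel_right₀ _ hμl] at h2
  have h3 := F₀.div_mem (F₀.neg_mem h2) hc'F
  have hc'0 : c' ≠ 0 := div_ne_zero hc0 (mul_ne_zero hμ0 fun h => hμ0 (by simpa using h))
  rw [neg_neg, mul_div_cancel_left₀ _ hc'0] at h3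
  have h4 := D.conj_mem _ h3
  rwa [hf.involutive] at h4

end CfsgLib.Subfield54.SU
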