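import Mathlib
import Cfsg.Agent.Subfield54.SURoot
import Cfsg.Agent.Subfield54.SpPlane

/-!
An irrational unitary transvection yields an irrational long root element at a rational vector.
-/

set_option autoImplicit false

namespace CfsgLib.Subfield54.SU

open Matrix CfsgLib.TransvGL CfsgLib.UnitCentres CfsgLib.Dickson

variable {F : Type*} [Field F]

/-- The fixed field of an automorphism. -/
def fixF (σ : F ≃+* F) : Subfield F where
  carrier := {x | σ x = x}
  mul_mem' {a b} ha hb := by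
    show σ (a * b) = a * b
    rw [map_mul, show σ a = a from ha, show σ b = b from hb]
  one_mem' := map_one σ
  add_mem' {a b} ha hb := by
    show σ (a + b) = a + b
    rw [map_add, show σ a = a from ha, show σ b = b from hb]
  zero_mem' := map_zero σ
  neg_mem' {a} ha := by
    show σ (-a) = -a
    rw [map_neg, show σ a = a from ha]
  inv_mem' a ha := by
    show σ a⁻¹ = a⁻¹
    rw [map_inv₀, show σ a = a from ha]

theorem mem_fixF {σ : F ≃+* F} {x : F} : x ∈ fixF σ ↔ σ x = x := Iff.rfl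

variable [Fintype F] {F₀ : Subfield F} {σ : F ≃+* F}
variable {ι : Type} [Fintype ι] [DecidableEq ι] {f : (ι → F) → (ι → F) → F}
variable {M : Subgroup (GL ι F)} {δ : F} (D : RatData σ f F₀ M δ)

include D in
/-- The plane argument. -/
theorem plane {r : ℕ} (hr : r.Prime)
    (hcardE : Nat.card (fixF σ) = Nat.card (F₀.comap (fixF σ).subtype) ^ r) {a a' b R : ι → F}
    (haa : f a a = 0) (hab : f a b ≠ 0) (hRa : f R a = 0) (hRa' : f R a' = 0) (hRb : f R b = 0)
    (hRR : f R R = 0) {u₁ u₂ : fixF σ} (hu₁ : u₁ ≠ 0) (hind : u₂ / u₁ ∉ F₀.comap (fixF σ).subtype)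
    (hup : ∀ u, (u = u₁ ∨ u = u₂) → ∀ c : fixF σ, (c : F) ∈ F₀ → ∃ g ∈ M, ∃ β : F,
      (g : Matrix ι ι F) *ᵥ a = a ∧ (g : Matrix ι ι F) *ᵥ b = ((c * u : fixF σ) : F) • a + b + β • R ∧
      ∀ z, f z a = 0 → f z a' = 0 → f z b = 0 → (g : Matrix ι ι F) *ᵥ z = z)
    {w : fixF σ} (hw : w ≠ 0) (hlow : ∃ g ∈ M,
      (g : Matrix ι ι F) *ᵥ a = a + (w : F) • b ∧ (g : Matrix ι ι F) *ᵥ b = b ∧
      ∀ z, f z a = 0 → f z a' = 0 → f z b = 0 → (g : Matrix ι ι F) *ᵥ z = z) :
    ∀ x : fixF σ, ∃ h ∈ M, ∃ α β : F, (h : Matrix ι ι F) *ᵥ a = a + α • R ∧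
      (h : Matrix ι ι F) *ᵥ b = (x : F) • a + b + β • R ∧
      ∀ z, f z a = 0 → f z a' = 0 → f z b = 0 → (h : Matrix ι ι F) *ᵥ z = z := by
  classical
  have hf := D.herm
  haveI := Fintype.ofFinite (fixF σ)
  rw [Nat.card_eq_fintype_card (α := fixF σ)] at hcardE
  let Kset : Set (GL (Fin 2) (fixF σ)) := {k | ∃ g ∈ M, ∃ α β : F,
    (g : Matrix ι ι F) *ᵥ a = (k 0 0 : F) • a + (k 1 0 : F) • b + α • R ∧
    (g : Matrix ι ι F) *ᵥ b = (k 0 1 : F) • a + (k 1 1 : F) • b + β • R ∧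
    ∀ z, f z a = 0 → f z a' = 0 → f z b = 0 → (g : Matrix ι ι F) *ᵥ z = z}
  have hone : (1 : GL (Fin 2) (fixF σ)) ∈ Kset :=
    ⟨1, M.one_mem, 0, 0, by simp, by simp, fun z _ _ _ => by simp⟩
  have hmul : ∀ {k k'}, k ∈ Kset → k' ∈ Kset → k * k' ∈ Kset := by
    rintro k k' ⟨g, hg, α, β, ga, gb, gz⟩ ⟨g', hg', α', β', ga', gb', gz'⟩
    have gR := gz R hRa hRa' hRb
    refine ⟨g * g', M.mul_mem hg hg', (k' 0 0 : F) * α + (k' 1 0 : F) * β + α',
      (k' 0 1 : F) * α + (k' 1 1 : F) * β + β',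
      ?_, ?_, fun z h1 h2 h3 => by rw [Units.val_mul, ← mulVec_mulVec, gz' z h1 h2 h3, gz z h1 h2 h3]⟩
    · rw [Units.val_mul, ← mulVec_mulVec, ga', mulVec_add, mulVec_add, mulVec_smul, mulVec_smul,
        mulVec_smul, ga, gb, gR]
      simp only [Units.val_mul, Matrix.mul_apply, Fin.sum_univ_two]
      push_cast
      module
    · rw [Units.val_mul, ← mulVec_mulVec, gb', mulVec_add, mulVec_add, mulVec_smul, mulVec_smul,
        mulVec_smul, ga, gb, gR]
      simp only [Units.val_mul, Matrix.mul_apply, Fin.sum_univ_two]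
      push_cast
      module
  let K : Subgroup (GL (Fin 2) (fixF σ)) :=
    { carrier := Kset
      one_mem' := hone
      mul_mem' := hmul
      inv_mem' := fun {k} hk => by
        have hpow : ∀ m : ℕ, k ^ m ∈ Kset := fun m => by
          induction m with
          | zero => simpa using hone
          | succ m ih => rw [pow_succ]; exact hmul ih hk
        have : k⁻¹ = k ^ (orderOf k - 1) := by
          refine inv_eq_of_mul_eq_one_right ?_
          rw [← pow_succ', Nat.sub_add_cancel (orderOf_pos k), pow_orderOf_eq_one]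
        rw [this]; exact hpow _ }
  let E₀ := F₀.comap (fixF σ).subtype
  let U : AddSubgroup (fixF σ) :=
    { carrier := {x | ∃ c₁ ∈ E₀, ∃ c₂ ∈ E₀, x = c₁ * u₁ + c₂ * u₂}
      zero_mem' := ⟨0, E₀.zero_mem, 0, E₀.zero_mem, by ring⟩
      add_mem' := by
        rintro _ _ ⟨a, ha, b, hb, rfl⟩ ⟨c, hc, d, hd, rfl⟩
        exact ⟨a + c, E₀.add_mem ha hc, b + d, E₀.add_mem hb hd, by ring⟩
      neg_mem' := by
        rintro _ ⟨a, ha, b, hb, rfl⟩
        exact ⟨-a, E₀.neg_mem ha, -b, E₀.neg_mem hb, by ring⟩ }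
  have hUF : ∀ c ∈ E₀, ∀ u ∈ U, c * u ∈ U := by
    rintro c hc _ ⟨a, ha, b, hb, rfl⟩
    exact ⟨c * a, E₀.mul_mem hc ha, c * b, E₀.mul_mem hc hb, by ring⟩
  have hgen : ∀ u, (u = u₁ ∨ u = u₂) → ∀ c ∈ E₀, upperT (c * u) ∈ K := fun u hu c hc => by
    obtain ⟨g, hg, β, ga, gb, gz⟩ := hup u hu c hc
    exact ⟨g, hg, 0, β, by simp [ga, upperT, GeneralLinearGroup.mkOfDetNeZero],
      by simp [gb, upperT, GeneralLinearGroup.mkOfDetNeZero], gz⟩
  have hUK : ∀ u ∈ U, upperT u ∈ K := by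
    rintro _ ⟨c₁, h₁, c₂, h₂, rfl⟩
    rw [← upperT_mul]
    exact K.mul_mem (hgen u₁ (Or.inl rfl) c₁ h₁) (hgen u₂ (Or.inr rfl) c₂ h₂)
  let g₀ : GL (Fin 2) (fixF σ) := GeneralLinearGroup.mkOfDetNeZero !![1, 0; w, 1] (by simp [det_fin_two])
  have hg₀ : g₀ ∈ K := by
    obtain ⟨g, hg, ga, gb, gz⟩ := hlow
    exact ⟨g, hg, 0, 0, by simp [ga, g₀, GeneralLinearGroup.mkOfDetNeZero],
      by simp [gb, g₀, GeneralLinearGroup.mkOfDetNeZero], gz⟩
  intro x₀
  obtain ⟨k, ⟨g, hg, α, β, ga, gb, gz⟩, s, hs, hk⟩ := exists_smul_upperT hr hcardE K U hUF hUK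
    (u₁ := u₁) (u₂ := u₂) ⟨1, E₀.one_mem, 0, E₀.zero_mem, by ring⟩
    ⟨0, E₀.zero_mem, 1, E₀.one_mem, by ring⟩ hu₁ hind hw hg₀ rfl
    (if (2 : (fixF σ)) = 0 then x₀ else x₀ / 2)
  rw [hk] at ga gb
  simp only [Matrix.cons_val', Matrix.cons_val_zero, Matrix.cons_val_one, Matrix.of_apply,
    Matrix.empty_val', Matrix.cons_val_fin_one, ZeroMemClass.coe_zero, zero_smul, add_zero] at ga gb
  generalize hx' : (if (2 : (fixF σ)) = 0 then x₀ else x₀ / 2) = x' at gb
  have hσs : σ (s : F) = s := s.2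
  have haR : f a R = 0 := orth_comm hf hRa
  have hs2 : (s : F) * s = 1 := by
    have := D.iso g hg a b
    rw [ga, gb] at this
    simp [hf.add_left, add_right hf, hf.smul_left, smul_right hf, haa, hRb, hRa, hRR, haR, hσs,
      map_mul] at this
    refine mul_right_cancel₀ hab ?_
    linear_combination this
  by_cases h2 : (2 : (fixF σ)) = 0
  · rw [← hx', if_pos h2] at gb
    have h2F : (2 : F) = 0 := (map_ofNat (fixF σ).subtype 2).symm.trans ((congrArg (fixF σ).subtype h2).trans (map_zero _))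
    have hs1 : (s : F) = 1 := by
      have : ((s : F) - 1) ^ 2 = 0 := by linear_combination hs2 + (1 - (s : F)) * h2F
      exact sub_eq_zero.mp (pow_eq_zero_iff two_ne_zero |>.mp this)
    push_cast at gb
    rw [hs1] at ga gb
    exact ⟨g, hg, α, β, by simpa using ga, by simpa using gb, gz⟩
  · rw [← hx', if_neg h2] at gb
    have hx2 : ((x₀ / 2 : (fixF σ)) : F) + ((x₀ / 2 : (fixF σ)) : F) = x₀ := by
      rw [← Subfield.coe_add]; congr 1; field_simp; ring
    have gR := gz R hRa hRa' hRb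
    rw [Subfield.coe_mul] at gb
    refine ⟨g * g, M.mul_mem hg hg, s * α + α, s * ((x₀ / 2 : (fixF σ)) : F) * α + s * β + β, ?_, ?_,
      fun z h1 h2 h3 => by rw [Units.val_mul, ← mulVec_mulVec, gz z h1 h2 h3, gz z h1 h2 h3]⟩
    · rw [Units.val_mul, ← mulVec_mulVec, ga, mulVec_add, mulVec_smul, mulVec_smul, ga, gR]
      linear_combination (norm := module) hs2 • a
    · rw [Units.val_mul, ← mulVec_mulVec, gb, mulVec_add, mulVec_add, mulVec_smul, mulVec_smul,
        mulVec_smul, ga, gb, gR]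
      linear_combination (norm := module) hs2 • ((((x₀ / 2 : (fixF σ)) : F) + ((x₀ / 2 : (fixF σ)) : F)) • a + b) + hx2 • a

include D in
theorem ratLine_pair_ratio {v y y' : ι → F} (hv : RatLine F₀ v) (hy : Rat F₀ y) (hy' : Rat F₀ y') :
    f v y / f v y' ∈ F₀ := by
  obtain ⟨t, u, hu, rfl⟩ := hv
  rw [D.herm.smul_left, D.herm.smul_left]
  by_cases ht : t = 0
  · simp [ht, F₀.zero_mem]
  · rw [mul_div_mul_left _ _ ht]
    exact F₀.div_mem (D.rat _ _ hu hy) (D.rat _ _ hu hy')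

include D in
/-- A rational combination that is isotropic. -/
theorem exists_iso_comb {u w : ι → F} (hu : Rat F₀ u) (hu0 : u ≠ 0) (hw : Rat F₀ w)
    (hli : ∀ s : F, w ≠ s • u) :
    ∃ c₁ ∈ F₀, ∃ c₂ ∈ F₀, c₁ • u + c₂ • w ≠ 0 ∧ f (c₁ • u + c₂ • w) (c₁ • u + c₂ • w) = 0 := by
  have hf := D.herm
  by_cases huu : f u u = 0
  · exact ⟨1, F₀.one_mem, 0, F₀.zero_mem, by simpa using hu0, by simpa using huu⟩
  set s := f w u / f u u with hs
  have hsF : s ∈ F₀ := F₀.div_mem (D.rat _ _ hw hu) (D.rat _ _ hu hu)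
  set w' := w - s • u with hw'
  have hw'r : Rat F₀ w' := hw.sub (hu.smul hsF)
  have hw'u : f w' u = 0 := by rw [hw', sub_left hf, hf.smul_left, hs, div_mul_cancel₀ _ huu, sub_self]
  let σ₀ : F₀ →+* F₀ :=
    { toFun := fun x => ⟨σ x, D.conj_mem _ x.2⟩
      map_one' := Subtype.ext (map_one σ)
      map_mul' := fun x y => Subtype.ext (map_mul σ _ _)
      map_zero' := Subtype.ext (map_zero σ)
      map_add' := fun x y => Subtype.ext (map_add σ _ _) }
  have hfix : σ (-f w' w' / f u u) = -f w' w' / f u u := by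
    rw [map_div₀, map_neg, norm_fixed hf, norm_fixed hf]
  obtain ⟨t, ht⟩ := CfsgLib.LinAlg.Witt.exists_norm_eq σ₀ (fun h => by
      obtain ⟨z, hz, hzne⟩ := D.conj_ne
      exact hzne (congrArg Subtype.val (RingHom.congr_fun h ⟨z, hz⟩)))
    (fun x => Subtype.ext (hf.involutive x))
    (r := ⟨-f w' w' / f u u, F₀.div_mem (F₀.neg_mem (D.rat _ _ hw'r hw'r)) (D.rat _ _ hu hu)⟩)
    (Subtype.ext hfix)
  have ht' : σ (t : F) * t = -f w' w' / f u u := congrArg Subtype.val ht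
  refine ⟨(t : F) - s, F₀.sub_mem t.2 hsF, 1, F₀.one_mem, ?_, ?_⟩
  · intro h
    exact hli (-((t : F) - s)) (by linear_combination (norm := module) h)
  · have e : ((t : F) - s) • u + (1 : F) • w = w' + (t : F) • u := by rw [hw']; module
    rw [e, norm_add_smul hf, hw'u, orth_comm hf hw'u, mul_zero, mul_zero, add_zero, add_zero, mul_comm (t : F),
      ht', div_mul_cancel₀ _ huu, add_neg_cancel]

include D in
theorem exists_iso_rat {k : ℕ} (hk : k + 1 < Fintype.card ι) (φ : Fin k → Module.Dual F (ι → F))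
    (hφ : ∀ a, RatD F₀ (φ a)) :
    ∃ x, Rat F₀ x ∧ x ≠ 0 ∧ f x x = 0 ∧ ∀ a, φ a x = 0 := by
  obtain ⟨u, hu, hu0, huk⟩ := exists_rat_kernel (F₀ := F₀) (k := k) (by omega) φ hφ
  obtain ⟨j, hj⟩ := exists_coord_ne hu0
  obtain ⟨w, hw, hw0, hwk⟩ := exists_rat_kernel (F₀ := F₀) (k := k + 1) hk (Fin.snoc φ (LinearMap.proj j))
    (fun a => by
      induction a using Fin.lastCases with
      | last => simp [ratD_proj]
      | cast a => simp [hφ])
  have hwj : w j = 0 := by simpa using hwk (Fin.last k)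
  obtain ⟨c₁, h₁, c₂, h₂, hne, hiso⟩ := exists_iso_comb D hu hu0 hw fun s hs => hw0 (by
    have h := congrFun hs j
    rw [hwj, Pi.smul_apply, smul_eq_mul, eq_comm, mul_eq_zero] at h
    rw [hs, h.resolve_right hj, zero_smul])
  refine ⟨_, (hu.smul h₁).add (hw.smul h₂), hne, hiso, fun a => ?_⟩
  have hwa : φ a w = 0 := by simpa using hwk a.castSucc
  simp [huk a, hwa]

include D in
/-- An isotropic rational shift. -/
theorem exists_shift {a y : ι → F} (ha : Rat F₀ a) (haa : f a a = 0) (hy : Rat F₀ y) (hya : f y a = 1) :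
    ∃ t ∈ F₀, f (y + t • a) (y + t • a) = 0 := by
  have hf := D.herm
  obtain ⟨t, ht, htt⟩ := exists_trace_rat D (F₀.neg_mem (D.rat _ _ hy hy))
    (by rw [map_neg, norm_fixed hf])
  refine ⟨σ t, D.conj_mem _ ht, ?_⟩
  rw [norm_add_smul hf, haa, hya, hf.involutive, hf.herm a y, hya, map_one]
  linear_combination htt

include D in
/-- An irrational transvection of `M` gives an irrational long root element at a rational vector. -/
theorem long_root_exists {r : ℕ} (hr : r.Prime) (hcard : Fintype.card F = Nat.card F₀ ^ r) (h3 : 3 ≤ r)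
    (hcardE : Nat.card (fixF σ) = Nat.card (F₀.comap (fixF σ).subtype) ^ r)
    (hn : 13 ≤ Fintype.card ι) {b₀ : ι → F} {c₀ : F} (hc0 : c₀ ≠ 0) (hct : c₀ + σ c₀ = 0)
    (hbM : TMem f M b₀ c₀) (hbL : ¬ RatLine F₀ b₀) :
    ∃ a, Rat F₀ a ∧ a ≠ 0 ∧ f a a = 0 ∧
      ∃ ν, ν ∉ F₀ ∧ ν + σ ν = 0 ∧ ∀ x ∈ F₀, σ x = x → TMem f M a (x * ν) := by
  classical
  have hf := D.herm
  haveI := Fintype.ofFinite (fixF σ)
  have hcardE' : Fintype.card (fixF σ) = Nat.card (F₀.comap (fixF σ).subtype) ^ r := by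
    rw [← Nat.card_eq_fintype_card]; exact hcardE
  by_contra hno
  have horth : ∀ (a v : ι → F) (k : F), k ≠ 0 → k + σ k = 0 → TMem f M v k → Rat F₀ a → a ≠ 0 →
      f a a = 0 → f a v = 0 → RatLine F₀ v := fun a v k hk hkt hv ha ha0 haa hav => by
    by_contra hL
    exact hno ⟨a, ha, ha0, haa, long_root_of_orth D hk hkt hv hL ha ha0 haa hav⟩
  have hinj : ∀ w, Rat F₀ w → f w w = 0 → f w b₀ = 0 → w = 0 := fun w hw hww hwb => by
    by_contra h0
    exact hbL (horth w b₀ c₀ hc0 hct hbM hw h0 hww hwb)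
  have hr9 : 9 ≤ r := by
    by_contra hlt
    haveI : Finite F₀ := inferInstance
    have hfin : Module.finrank F₀ F = r := by
      have h := Module.natCard_eq_pow_finrank (K := F₀) (V := F)
      rw [Nat.card_eq_fintype_card, hcard] at h
      exact (Nat.pow_right_injective Finite.one_lt_card h).symm
    have hmul : ∀ (c : F₀) (v : ι → F₀), f (fun i => ((c • v) i : F)) b₀ = (c : F) * f (fun i => (v i : F)) b₀ :=
      fun c v => by rw [← hf.smul_left]; rfl
    let L : (ι → F₀) →ₗ[F₀] F :=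
      { toFun := fun v => f (fun i => (v i : F)) b₀
        map_add' := fun v w => by rw [← hf.add_left]; rfl
        map_smul' := fun c v => by rw [hmul]; rfl }
    have hlt' : Module.finrank F₀ F < Module.finrank F₀ (ι → F₀) := by
      rw [hfin, Module.finrank_pi]; omega
    obtain ⟨u, hu, hu0⟩ := (Submodule.ne_bot_iff _).mp (L.ker_ne_bot_of_finrank_lt hlt')
    obtain ⟨j, hj⟩ : ∃ j, u j ≠ 0 := Function.ne_iff.mp hu0
    have hlt'' : Module.finrank F₀ (F × F₀) < Module.finrank F₀ (ι → F₀) := by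
      rw [Module.finrank_prod, hfin, Module.finrank_self, Module.finrank_pi]; omega
    obtain ⟨w, hw, hw0⟩ := (Submodule.ne_bot_iff _).mp
      ((L.prod (LinearMap.proj j)).ker_ne_bot_of_finrank_lt hlt'')
    replace hw := Prod.ext_iff.mp (LinearMap.mem_ker.mp hw)
    obtain ⟨hwL, hwj⟩ := hw
    obtain ⟨c₁, h₁, c₂, h₂, hne, hiso⟩ := exists_iso_comb D (u := fun i => (u i : F)) (fun i => (u i).2)
      (fun h => hj (Subtype.ext (congrFun h j))) (w := fun i => (w i : F)) (fun i => (w i).2) fun s hs => hw0 (by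
        have h := congrFun hs j
        replace hwj : w j = 0 := hwj
        simp [hwj] at h
        rcases h with h | h
        · funext i; exact Subtype.ext (by simpa [h] using congrFun hs i)
        · exact absurd h hj)
    apply hne
    refine hinj _ ((Rat.smul h₁ fun i => (u i).2).add (Rat.smul h₂ fun i => (w i).2)) hiso ?_
    rw [hf.add_left, hf.smul_left, hf.smul_left, show f (fun i => (u i : F)) b₀ = 0 from hu,
      show f (fun i => (w i : F)) b₀ = 0 from hwL]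
    ring
  -- the vectors
  obtain ⟨a, ha, ha0, haa, -⟩ := exists_iso_rat D (k := 0) (by omega) ![] (fun a => a.elim0)
  obtain ⟨y₁, hy₁, hy₁a⟩ := exists_rat_pair_ne D ha0
  obtain ⟨y, hy, hya⟩ : ∃ y, Rat F₀ y ∧ f y a = 1 :=
    ⟨(f y₁ a)⁻¹ • y₁, hy₁.smul (F₀.inv_mem (D.rat _ _ hy₁ ha)), by rw [hf.smul_left, inv_mul_cancel₀ hy₁a]⟩
  obtain ⟨t₀, ht₀, hee⟩ := exists_shift D ha haa hy hya
  obtain ⟨e, he⟩ : ∃ e, e = y + t₀ • a := ⟨_, rfl⟩
  rw [← he] at hee
  have her : Rat F₀ e := he ▸ hy.add (ha.smul ht₀)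
  have hea : f e a = 1 := by rw [he, hf.add_left, hf.smul_left, haa, hya, mul_zero, add_zero]
  have hae : f a e = 1 := by rw [hf.herm, hea, map_one]
  obtain ⟨a', ha', ha'0, ha'a', hk'⟩ := exists_iso_rat D (k := 2) (by omega) ![upair hf a, upair hf e]
    (by simp [Fin.forall_fin_two, ratD_upair D, ha, her])
  have ha'a : f a' a = 0 := hk' 0
  have haa' : f a a' = 0 := orth_comm hf ha'a
  have ha'e : f a' e = 0 := hk' 1
  have hea' : f e a' = 0 := orth_comm hf ha'e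
  have hli : ∀ s : F, a' ≠ s • a := fun s hs => ha'0 (by
    have : f a' e = s := by rw [hs, hf.smul_left, hae, mul_one]
    rw [hs, this.symm.trans ha'e, zero_smul])
  obtain ⟨y₂, hy₂, hy₂a, hy₂a'⟩ := exists_rat_perp_sep D ha ha0 (a := a') hli
  obtain ⟨y', hy', hy'a, hy'a'⟩ : ∃ y', Rat F₀ y' ∧ f y' a = 0 ∧ f y' a' = 1 :=
    ⟨(f y₂ a')⁻¹ • y₂, hy₂.smul (F₀.inv_mem (D.rat _ _ hy₂ ha')), by rw [hf.smul_left, hy₂a, mul_zero],
      by rw [hf.smul_left, inv_mul_cancel₀ hy₂a']⟩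
  obtain ⟨t₁, ht₁, he'e'⟩ := exists_shift D ha' ha'a' hy' hy'a'
  obtain ⟨e', he'⟩ : ∃ e', e' = y' + t₁ • a' := ⟨_, rfl⟩
  rw [← he'] at he'e'
  have he'r : Rat F₀ e' := he' ▸ hy'.add (ha'.smul ht₁)
  have he'a : f e' a = 0 := by rw [he', hf.add_left, hf.smul_left, hy'a, ha'a, mul_zero, add_zero]
  have he'a' : f e' a' = 1 := by
    rw [he', hf.add_left, hf.smul_left, hy'a', ha'a', mul_zero, add_zero]
  have hae' : f a e' = 0 := orth_comm hf he'a
  have ha'e' : f a' e' = 1 := by rw [hf.herm, he'a', map_one]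
  set p := f a b₀ with hp_def
  have hp : p ≠ 0 := fun h => ha0 (hinj a ha haa h)
  obtain ⟨ρ, hρp⟩ : ∃ ρ, ρ * p = f a' b₀ := ⟨f a' b₀ / p, div_mul_cancel₀ _ hp⟩
  have hρ : ρ ∉ F₀ := fun h => hli ρ (sub_eq_zero.mp (hinj _ (ha'.sub (ha.smul h))
    (by simp [sub_left hf, sub_right hf, hf.smul_left, smul_right hf, haa, haa', ha'a, ha'a'])
    (by rw [sub_left hf, hf.smul_left, ← hp_def, hρp, sub_self])))
  have hquad : ∀ {u v : F}, u ∈ F₀ → v ∈ F₀ → ρ ^ 2 ≠ u + v * ρ :=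
    Sp.not_quadratic hr hcard h3 hρ
  -- rescale the centre
  have hδ0 := D.delta_ne
  have hσδ : σ δ = -δ := by linear_combination D.delta_tr
  have hσp : σ p ≠ 0 := fun h => hp (by simpa using h)
  obtain ⟨b, hb⟩ : ∃ b, b = (δ * σ p)⁻¹ • b₀ := ⟨_, rfl⟩
  have hab : f a b = -δ⁻¹ := by
    rw [hb, smul_right hf, ← hp_def, map_inv₀, map_mul, hf.involutive, hσδ]; field_simp
  have ha'b : f a' b = -(ρ * δ⁻¹) := by
    rw [hb, smul_right hf, ← hρp, map_inv₀, map_mul, hf.involutive, hσδ]; field_simp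
  have hba : f b a = δ⁻¹ := by rw [hf.herm, hab, map_neg, map_inv₀, hσδ]; field_simp
  have hba' : f b a' = σ ρ * δ⁻¹ := by rw [hf.herm, ha'b, map_neg, map_mul, map_inv₀, hσδ]; field_simp
  have hbb0 := hbM.1
  have hbb : f b b = 0 := by rw [hb, hf.smul_left, smul_right hf, hbb0, mul_zero, mul_zero]
  set s₀ := (δ * σ p)⁻¹ with hs₀
  have hs₀0 : s₀ * σ s₀ ≠ 0 := by
    have : s₀ ≠ 0 := inv_ne_zero (mul_ne_zero hδ0 hσp)
    exact mul_ne_zero this (fun h => this (by simpa using h))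
  obtain ⟨k, hk⟩ : ∃ k, k = c₀ / (s₀ * σ s₀) := ⟨_, rfl⟩
  have hbk : TMem f M b k := by
    rw [hb]
    exact TMem.smul hf s₀ (by rwa [hk, div_mul_cancel₀ _ hs₀0])
  have hk0 : k ≠ 0 := hk ▸ div_ne_zero hc0 hs₀0
  have hkt : k + σ k = 0 := by
    rw [hk, map_div₀, map_mul, hf.involutive, mul_comm (σ s₀) s₀, ← add_div, hct, zero_div]
  obtain ⟨R, hR⟩ : ∃ R, R = ρ • a - a' := ⟨_, rfl⟩
  have hRb : f R b = 0 := by rw [hR, sub_left hf, hf.smul_left, hab, ha'b]; ring
  have hRa : f R a = 0 := by rw [hR, sub_left hf, hf.smul_left, haa, ha'a]; ring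
  have hRa' : f R a' = 0 := by rw [hR, sub_left hf, hf.smul_left, haa', ha'a']; ring
  have hRR : f R R = 0 := by
    conv_lhs => arg 2; rw [hR]
    rw [sub_right hf, smul_right hf, hRa, hRa', mul_zero, sub_zero]
  -- generators
  have hgen : ∀ x y : F, x ∈ F₀ → y ∈ F₀ → ∀ c : F, c ∈ F₀ → σ c = c → ∃ g ∈ M, ∃ β : F,
      (g : Matrix ι ι F) *ᵥ a = a ∧
      (g : Matrix ι ι F) *ᵥ b = (c * ((x + y * ρ) * σ (x + y * ρ))) • a + b + β • R ∧
      ∀ z, f z a = 0 → f z a' = 0 → f z b = 0 → (g : Matrix ι ι F) *ᵥ z = z := by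
    intro x y hx hy c hc hσc
    obtain ⟨hvv, g, hg, hgx⟩ := tmem_rat D (c := c * δ) ((ha.smul hx).add (ha'.smul hy))
      (by simp [hf.add_left, add_right hf, hf.smul_left, smul_right hf, haa, haa', ha'a, ha'a'])
      (F₀.mul_mem hc D.delta_mem) (by rw [map_mul, hσc, hσδ]; ring)
    refine ⟨g, hg, -(c * (σ x + σ y * σ ρ) * y), ?_, ?_, fun z h1 h2 _ => ?_⟩
    · rw [hgx]; simp [add_right hf, smul_right hf, haa, haa']
    · rw [hgx, add_right hf, smul_right hf, smul_right hf, hba, hba', hR, map_add, map_mul]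
      match_scalars <;> field_simp <;> ring
    · rw [hgx]; simp [add_right hf, smul_right hf, h1, h2]
  have hwmem : -(k / δ) ∈ fixF σ := by
    rw [mem_fixF, map_neg, map_div₀, hσδ, show σ k = -k by linear_combination hkt, neg_div_neg_eq]
  have hN : ∀ x : F, x * σ x ∈ fixF σ := fun x => by rw [mem_fixF, map_mul, hf.involutive, mul_comm]
  have hlow : ∃ g ∈ M, (g : Matrix ι ι F) *ᵥ a = a + (((⟨_, hwmem⟩ : fixF σ)) : F) • b ∧
      (g : Matrix ι ι F) *ᵥ b = b ∧
      ∀ z, f z a = 0 → f z a' = 0 → f z b = 0 → (g : Matrix ι ι F) *ᵥ z = z := by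
    obtain ⟨-, g, hg, hgx⟩ := hbk
    refine ⟨g, hg, ?_, by rw [hgx, hbb]; simp, fun z _ _ h3 => by rw [hgx, h3]; simp⟩
    rw [hgx, hab, mul_neg, ← div_eq_mul_inv]
  -- the second generator
  obtain ⟨x₂, y₂', hx₂, hy₂', hu₂⟩ : ∃ x y : F, x ∈ F₀ ∧ y ∈ F₀ ∧
      (x + y * ρ) * σ (x + y * ρ) ∉ F₀ := by
    by_cases h1 : ρ * σ ρ ∈ F₀
    · by_cases h2 : (1 + ρ) * σ (1 + ρ) ∈ F₀
      · exfalso
        refine hquad (u := -(ρ * σ ρ)) (v := (1 + ρ) * σ (1 + ρ) - 1 - ρ * σ ρ) (F₀.neg_mem h1)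
          (F₀.sub_mem (F₀.sub_mem h2 F₀.one_mem) h1) ?_
        rw [map_add, map_one]; ring
      · exact ⟨1, 1, F₀.one_mem, F₀.one_mem, by rwa [one_mul]⟩
    · exact ⟨0, 1, F₀.zero_mem, F₀.one_mem, by rwa [zero_add, one_mul]⟩
  obtain ⟨x₀, hx₀⟩ := Sp.exists_not_mem_image (F := fixF σ) (F₀ := F₀.comap (fixF σ).subtype)
    hcardE' (k := 8) (by omega) (by
      let z := Classical.choose D.conj_ne
      exact fun c => Function.invFun (fun e : fixF σ => (e : F))
        ((((c 0 : fixF σ) : F) + (c 1 : fixF σ) * z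
          + (((c 2 : fixF σ) : F) + (c 3 : fixF σ) * z) * ρ
          + (((c 4 : fixF σ) : F) + (c 5 : fixF σ) * z) * σ ρ
          + (((c 6 : fixF σ) : F) + (c 7 : fixF σ) * z) * (ρ * σ ρ)) / δ))
  obtain ⟨h, hhM, α, β, hha, hhb, hhz⟩ := plane D hr hcardE (a := a) (a' := a') (b := b) (R := R)
    haa (by rw [hab]; exact neg_ne_zero.2 (inv_ne_zero hδ0)) hRa hRa' hRb hRR
    (u₁ := 1) (u₂ := ⟨_, hN (x₂ + y₂' * ρ)⟩) one_ne_zero
    (by
      rw [div_one, Subfield.mem_comap]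
      exact hu₂)
    (fun u hu c hc => by
      rcases hu with rfl | rfl
      · have := hgen 1 0 F₀.one_mem F₀.zero_mem c hc c.2
        simpa using this
      · simpa using hgen x₂ y₂' hx₂ hy₂' c hc c.2)
    (w := ⟨_, hwmem⟩) (fun h0 => by
      have := congrArg Subtype.val h0
      simp [hk0, hδ0] at this) hlow x₀
  have hha' : (h : Matrix ι ι F) *ᵥ a' = a' + (ρ * α) • R := by
    rw [show a' = ρ • a - R by rw [hR]; abel, mulVec_sub, mulVec_smul, hha, hhz R hRa hRa' hRb]; module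
  have hpres : Iso f h := D.iso h hhM
  have haR : f a R = 0 := orth_comm hf hRa
  have hcentre : ∀ v w, Rat F₀ v → f v v = 0 → Rat F₀ w → w ≠ 0 → f w w = 0 →
      f w ((h : Matrix ι ι F) *ᵥ v) = 0 → RatLine F₀ ((h : Matrix ι ι F) *ᵥ v) :=
    fun v w hv hvv hw hw0 hww hwv => horth w _ δ hδ0 D.delta_tr
      ((tmem_rat D hv hvv D.delta_mem D.delta_tr).conj hhM hpres) hw hw0 hww hwv
  have hα : α = 0 := by
    by_contra hα
    have e1 := ratLine_pair_ratio D (hcentre a a ha haa ha ha0 haa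
      (by rw [hha]; simp [add_right hf, smul_right hf, haa, haR])) her he'r
    have e2 := ratLine_pair_ratio D (hcentre a' a ha' ha'a' ha ha0 haa
      (by rw [hha']; simp [add_right hf, smul_right hf, haa', haR])) he'r her
    have e3 := ratLine_pair_ratio D (hcentre (a + a') a (ha.add ha')
      (by simp [hf.add_left, add_right hf, haa, haa', ha'a, ha'a']) ha ha0 haa
      (by rw [mulVec_add, hha, hha']; simp [add_right hf, smul_right hf, haa, haa', haR])) her he'r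
    have hRe : f R e = ρ := by rw [hR, sub_left hf, hf.smul_left, hae, ha'e]; ring
    have hRe' : f R e' = -1 := by rw [hR, sub_left hf, hf.smul_left, hae', ha'e']; ring
    rw [hha] at e1
    rw [hha'] at e2
    rw [mulVec_add, hha, hha'] at e3
    simp only [hf.add_left, hf.smul_left, hae, hae', ha'e, ha'e', hRe, hRe'] at e1 e2 e3
    set c := (1 + α * ρ) / (0 + α * -1) with hc_def
    set c' := (1 + ρ * α * -1) / (0 + ρ * α * ρ) with hc'_def
    have hρ0 : ρ ≠ 0 := fun h => hρ (h ▸ F₀.zero_mem)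
    have k1 : 1 / α + ρ = -c := by
      rw [hc_def, zero_add, mul_neg_one, div_neg, neg_neg, add_div, mul_div_cancel_left₀ _ hα]
    have k2 : 1 / α - ρ = c' * ρ ^ 2 := by rw [hc'_def]; field_simp; ring
    have h2mem : (2 : F) ∈ F₀ := by simpa [one_add_one_eq_two] using F₀.add_mem F₀.one_mem F₀.one_mem
    by_cases hc' : c' = 0
    · rw [hc'] at k2
      by_cases h2 : (2 : F) = 0
      · have hap : α * ρ = 1 := by
          have : 1 / α = ρ := by linear_combination k2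
          rw [← this, mul_one_div, div_self hα]
        refine hquad (u := -((1 + α * ρ + (0 + ρ * α * ρ)) / (0 + α * -1 + (1 + ρ * α * -1)))) (v := 0)
          (F₀.neg_mem e3) F₀.zero_mem ?_
        have hn2 : 1 + α * ρ + (0 + ρ * α * ρ) = ρ := by linear_combination (1 + ρ) * hap + h2
        have hd2 : 0 + α * -1 + (1 + ρ * α * -1) = -α := by linear_combination -hap
        rw [hn2, hd2]
        field_simp
        linear_combination hap
      · apply hρ
        have : ρ = -c / 2 := by field_simp; linear_combination k1 - k2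
        rw [this]
        exact F₀.div_mem (F₀.neg_mem e1) h2mem
    · exact hquad (u := -c / c') (v := -2 / c') (F₀.div_mem (F₀.neg_mem e1) e2)
        (F₀.div_mem (F₀.neg_mem h2mem) e2)
        (by field_simp; linear_combination k1 - k2)
  subst hα
  simp only [zero_smul, add_zero, mul_zero] at hha hha'
  have hperp : ∀ z, f z a = 0 → f z a' = 0 → (h : Matrix ι ι F) *ᵥ z = z := by
    intro z h1 h2
    have := hhz (z - (f z b / f a b) • a) (by rw [sub_left hf, hf.smul_left, h1, haa]; ring)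
      (by rw [sub_left hf, hf.smul_left, h2, haa']; ring)
      (by rw [sub_left hf, hf.smul_left, div_mul_cancel₀ _ (by rw [hab]; exact neg_ne_zero.2 (inv_ne_zero hδ0)),
        sub_self])
    rwa [mulVec_sub, mulVec_smul, hha, sub_left_inj] at this
  have hline : ∀ v w, Rat F₀ v → f v v = 0 → Rat F₀ w → w ≠ 0 → f w w = 0 →
      (h : Matrix ι ι F) *ᵥ w = w → f w v = 0 →
      ∀ y, Rat F₀ y → (h : Matrix ι ι F) *ᵥ y = y → f y v ≠ 0 →
        Rat F₀ ((h : Matrix ι ι F) *ᵥ v) := by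
    intro v w hv hvv hw hw0 hww hhw hwv y hy hhy hyv
    obtain ⟨t, u, hu, htu⟩ := hcentre v w hv hvv hw hw0 hww (by rw [← hhw, hpres, hwv])
    have h1 : σ t * f y u = f y v := by
      rw [← smul_right hf, ← htu]
      conv_lhs => rw [← hhy]
      rw [hpres]
    have hyu : f y u ≠ 0 := fun h0 => hyv (by rw [← h1, h0, mul_zero])
    rw [htu]
    refine hu.smul ?_
    have hσt : σ t ∈ F₀ := by
      rw [eq_div_iff hyu |>.mpr h1]
      exact F₀.div_mem (D.rat _ _ hy hv) (D.rat _ _ hy hu)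
    simpa [hf.involutive] using D.conj_mem _ hσt
  have hher := hline e a' her hee ha' ha'0 ha'a' hha' ha'e a ha hha (by rw [hae]; exact one_ne_zero)
  have hhe'r := hline e' a he'r he'e' ha ha0 haa hha hae' a' ha' hha' (by rw [ha'e']; exact one_ne_zero)
  have hdisp : ∀ v, (h : Matrix ι ι F) *ᵥ v - v =
      f ((h : Matrix ι ι F) *ᵥ v - v) e • a + f ((h : Matrix ι ι F) *ᵥ v - v) e' • a' := by
    intro v
    set d := (h : Matrix ι ι F) *ᵥ v - v with hd
    refine pair_inj hf fun x => ?_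
    have hx0 := hperp (x - f x a • e - f x a' • e')
      (by simp [sub_left hf, hf.smul_left, hea, he'a])
      (by simp [sub_left hf, hf.smul_left, hea', he'a'])
    have h0 : f (x - f x a • e - f x a' • e') d = 0 := by
      rw [hd, sub_right hf, sub_eq_zero]
      conv_lhs => rw [← hx0]
      rw [hpres]
    rw [sub_left hf, sub_left hf, hf.smul_left, hf.smul_left] at h0
    rw [add_right hf, smul_right hf, smul_right hf, ← hf.herm e d, ← hf.herm e' d]
    linear_combination h0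
  obtain ⟨de, hde⟩ : ∃ d, d = (h : Matrix ι ι F) *ᵥ e - e := ⟨_, rfl⟩
  obtain ⟨de', hde'⟩ : ∃ d, d = (h : Matrix ι ι F) *ᵥ e' - e' := ⟨_, rfl⟩
  have hb' : (h : Matrix ι ι F) *ᵥ b - b = f b a • de + f b a' • de' := by
    have := hperp (b - f b a • e - f b a' • e')
      (by simp [sub_left hf, hf.smul_left, hea, he'a])
      (by simp [sub_left hf, hf.smul_left, hea', he'a'])
    rw [mulVec_sub, mulVec_sub, mulVec_smul, mulVec_smul] at this
    rw [hde, hde']
    linear_combination (norm := module) this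
  have hd1 := hdisp e
  have hd2 := hdisp e'
  rw [← hde] at hd1
  rw [← hde'] at hd2
  have hder : Rat F₀ de := hde ▸ hher.sub her
  have hde'r : Rat F₀ de' := hde' ▸ hhe'r.sub he'r
  set l₁ := f de e
  set l₂ := f de e'
  set m₁ := f de' e
  set m₂ := f de' e'
  have hl := congrArg (f · b) hb'
  rw [hd1, hd2, hhb] at hl
  simp [sub_left hf, hf.add_left, hf.smul_left, hRb, hab, ha'b, hba, hba'] at hl
  -- coordinates over the fixed field
  set z₀ := Classical.choose D.conj_ne with hz₀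
  obtain ⟨hz₀F, hz₀ne⟩ := Classical.choose_spec D.conj_ne
  have hcoord₀ : ∀ t ∈ F₀, ∃ c d : F₀.comap (fixF σ).subtype,
      t = ((c : fixF σ) : F) + ((d : fixF σ) : F) * z₀ := by
    intro t ht
    have hd : z₀ - σ z₀ ≠ 0 := sub_ne_zero.2 (Ne.symm hz₀ne)
    have h1 : σ ((t - σ t) / (z₀ - σ z₀)) = (t - σ t) / (z₀ - σ z₀) := by
      rw [map_div₀, map_sub, map_sub, hf.involutive, hf.involutive, ← neg_sub t, ← neg_sub z₀, neg_div_neg_eq]
    have h1F : (t - σ t) / (z₀ - σ z₀) ∈ F₀ :=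
      F₀.div_mem (F₀.sub_mem ht (D.conj_mem _ ht)) (F₀.sub_mem hz₀F (D.conj_mem _ hz₀F))
    have h2 : σ (t - (t - σ t) / (z₀ - σ z₀) * z₀) = t - (t - σ t) / (z₀ - σ z₀) * z₀ := by
      rw [map_sub, map_mul, h1]
      field_simp
      ring
    exact ⟨⟨⟨_, h2⟩, F₀.sub_mem ht (F₀.mul_mem h1F hz₀F)⟩, ⟨⟨_, h1⟩, h1F⟩, by simp⟩
  obtain ⟨c0, c1, hc01⟩ := hcoord₀ l₁ (D.rat _ _ hder her)
  obtain ⟨c2, c3, hc23⟩ := hcoord₀ l₂ (D.rat _ _ hder he'r)
  obtain ⟨c4, c5, hc45⟩ := hcoord₀ m₁ (D.rat _ _ hde'r her)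
  obtain ⟨c6, c7, hc67⟩ := hcoord₀ m₂ (D.rat _ _ hde'r he'r)
  have hxeq : (l₁ + l₂ * ρ + m₁ * σ ρ + m₂ * (ρ * σ ρ)) / δ = (x₀ : F) := by
    field_simp at hl ⊢
    linear_combination hl
  refine hx₀ ![c0, c1, c2, c3, c4, c5, c6, c7] ?_
  rw [hc01, hc23, hc45, hc67] at hxeq
  show Function.invFun (fun e : fixF σ => (e : F)) _ = x₀
  rw [← Function.leftInverse_invFun (f := fun e : fixF σ => (e : F)) Subtype.val_injective x₀]
  congr 1

end CfsgLib.Subfield54.SU
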