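import Mathlib
import Cfsg.Agent.Subfield54.SUPlane
import Cfsg.Agent.Classical.UnitCentresStd
import Cfsg.Agent.AschPrime.UnitarySubfield

/-!
Maximality of subfield groups in the special unitary group.
-/

set_option autoImplicit false

namespace CfsgLib.Subfield54.SU

open Matrix CfsgLib.TransvGL CfsgLib.UnitCentres

variable {ι : Type} [Fintype ι] [DecidableEq ι] {F : Type*} [Field F] [Fintype F] {F₀ : Subfield F}
variable {σ : F ≃+* F} {f : (ι → F) → (ι → F) → F} {M : Subgroup (GL ι F)} {δ : F}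
variable (D : RatData σ f F₀ M δ)

include D in
/-- One irrational family of long root elements gives all of them. -/
theorem centre_of_root {r : ℕ} (hr : r.Prime)
    (hcardE : Nat.card (fixF σ) = Nat.card (F₀.comap (fixF σ).subtype) ^ r) {a : ι → F}
    (ha : Rat F₀ a) (ha0 : a ≠ 0) (haa : f a a = 0) {ν : F} (hν : ν ∉ F₀) (hνt : ν + σ ν = 0)
    (hνM : ∀ x ∈ F₀, σ x = x → TMem f M a (x * ν)) : Centre D.herm M a := by
  classical
  have hf := D.herm
  have hσδ : σ δ = -δ := by linear_combination D.delta_tr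
  have hδ0 := D.delta_ne
  obtain ⟨y₁, hy₁, hy₁a⟩ := exists_rat_pair_ne D ha0
  obtain ⟨y, hy, hya⟩ : ∃ y, Rat F₀ y ∧ f y a = 1 :=
    ⟨(f y₁ a)⁻¹ • y₁, hy₁.smul (F₀.inv_mem (D.rat _ _ hy₁ ha)), by rw [hf.smul_left, inv_mul_cancel₀ hy₁a]⟩
  obtain ⟨t₀, ht₀, hee⟩ := exists_shift D ha haa hy hya
  obtain ⟨e, he⟩ : ∃ e, e = y + t₀ • a := ⟨_, rfl⟩
  rw [← he] at hee
  have her : Rat F₀ e := he ▸ hy.add (ha.smul ht₀)
  have hea : f e a = 1 := by rw [he, hf.add_left, hf.smul_left, haa, hya, mul_zero, add_zero]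
  have hae : f a e = 1 := by rw [hf.herm, hea, map_one]
  obtain ⟨b, hb⟩ : ∃ b, b = δ⁻¹ • e := ⟨_, rfl⟩
  have hba : f b a = δ⁻¹ := by rw [hb, hf.smul_left, hea, mul_one]
  have hab : f a b = -δ⁻¹ := by rw [hb, smul_right hf, hae, map_inv₀, hσδ, mul_one, inv_neg]
  have hbb : f b b = 0 := by rw [hb, hf.smul_left, smul_right hf, hee, mul_zero, mul_zero]
  have hzb : ∀ z, f z b = 0 → f z e = 0 := fun z h => by
    rw [hb, smul_right hf, mul_eq_zero] at h
    exact h.resolve_left (by simpa using hδ0)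
  have hup : ∀ c : F, TMem f M a c → ∃ g ∈ M, ∃ β : F, (g : Matrix ι ι F) *ᵥ a = a ∧
      (g : Matrix ι ι F) *ᵥ b = (c / δ) • a + b + β • (0 : ι → F) ∧
      ∀ z, f z a = 0 → f z (0 : ι → F) = 0 → f z b = 0 → (g : Matrix ι ι F) *ᵥ z = z := by
    rintro c ⟨-, g, hg, hgx⟩
    refine ⟨g, hg, 0, by rw [hgx, haa]; simp, ?_, fun z h _ _ => by rw [hgx, h]; simp⟩
    rw [hgx, hba, smul_zero, add_zero, div_eq_mul_inv, add_comm]
  have hν2 : ν / δ ∈ fixF σ := by
    rw [mem_fixF, map_div₀, hσδ, show σ ν = -ν by linear_combination hνt, neg_div_neg_eq]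
  have hδ2 : δ * δ ∈ fixF σ := by rw [mem_fixF, map_mul, hσδ]; ring
  have hplane := plane D hr hcardE (a := a) (a' := 0) (b := b) (R := 0) haa
    (by rw [hab]; exact neg_ne_zero.2 (inv_ne_zero hδ0)) (zero_left hf a) (zero_left hf _) (zero_left hf b)
    (zero_left hf _) (u₁ := 1) (u₂ := ⟨_, hν2⟩) one_ne_zero
    (by
      rw [div_one, Subfield.mem_comap]
      intro h
      have := F₀.mul_mem h D.delta_mem
      simp [hδ0] at this
      exact hν this)
    (fun u hu c hc => by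
      rcases hu with rfl | rfl
      · have h := hup ((c : F) * δ) (tmem_rat D ha haa (F₀.mul_mem hc D.delta_mem)
          (by rw [map_mul, show σ (c : F) = c from c.2, hσδ]; ring))
        rw [mul_div_cancel_right₀ _ hδ0] at h
        simpa using h
      · have h := hup _ (hνM (c : F) hc c.2)
        rw [mul_div_assoc] at h
        simpa using h)
    (w := ⟨_, hδ2⟩) (fun h => by
      have := congrArg Subtype.val h
      simp [hδ0] at this)
    (by
      obtain ⟨-, g, hg, hgx⟩ := tmem_rat D her hee D.delta_mem D.delta_tr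
      refine ⟨g, hg, ?_, ?_, fun z _ _ h3 => by rw [hgx, hzb z h3]; simp⟩
      · rw [hgx, hae, hb, smul_smul, mul_one]
        congr 2
        field_simp
      · rw [hgx, hb, hf.smul_left, hee]; simp)
  refine TMem.centre haa fun c hc => ?_
  have hcE : c / δ ∈ fixF σ := by
    rw [mem_fixF, map_div₀, hσδ, show σ c = -c by linear_combination hc, neg_div_neg_eq]
  obtain ⟨h, hh, α, β, hha, hhb, hhz⟩ := hplane ⟨_, hcE⟩
  simp only [smul_zero, add_zero] at hha hhb
  refine ⟨haa, h, hh, fun z => ?_⟩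
  have hab0 : f a b ≠ 0 := by rw [hab]; exact neg_ne_zero.2 (inv_ne_zero hδ0)
  have hba0 : f b a ≠ 0 := by rw [hba]; exact inv_ne_zero hδ0
  have h0 := hhz (z - (f z b / f a b) • a - (f z a / f b a) • b)
    (by rw [sub_left hf, sub_left hf, hf.smul_left, hf.smul_left, haa, div_mul_cancel₀ _ hba0]; ring)
    (zero_right hf _)
    (by rw [sub_left hf, sub_left hf, hf.smul_left, hf.smul_left, hbb, div_mul_cancel₀ _ hab0]; ring)
  rw [mulVec_sub, mulVec_sub, mulVec_smul, mulVec_smul, hha, hhb] at h0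
  linear_combination (norm := skip) h0
  rw [hba]
  match_scalars <;> field_simp <;> ring

include D in
/-- Rational vectors in a hyperbolic complement are sums of isotropic ones. -/
theorem iso_induction {e e' : ι → F} (he : Rat F₀ e) (he' : Rat F₀ e') (hn : 5 ≤ Fintype.card ι)
    (hπ : ∀ x, f (x - f x e' • e - f x e • e') e = 0 ∧ f (x - f x e' • e - f x e • e') e' = 0)
    (P : (ι → F) → Prop) (hadd : ∀ x y, P x → P y → P (x + y))
    (hiso : ∀ x, Rat F₀ x → f x x = 0 → f x e = 0 → f x e' = 0 → P x) :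
    ∀ x, Rat F₀ x → f x e = 0 → f x e' = 0 → P x := by
  have hf := D.herm
  obtain ⟨u₀, hu₀, hu₀0, hu₀u, hk⟩ := exists_iso_rat D (k := 2) (by omega) ![upair hf e, upair hf e']
    (by simp [Fin.forall_fin_two, ratD_upair D, he, he'])
  have hu₀e : f u₀ e = 0 := hk 0
  have hu₀e' : f u₀ e' = 0 := hk 1
  obtain ⟨x, hx, hxu⟩ := exists_rat_pair_ne D hu₀0
  have hmain : ∀ w, Rat F₀ w → f w e = 0 → f w e' = 0 → f w u₀ ≠ 0 → P w := by
    intro w hw hwe hwe' hwu
    have hcF := D.rat _ _ hw hu₀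
    have hw1 : f ((f w u₀)⁻¹ • w) u₀ = 1 := by rw [hf.smul_left, inv_mul_cancel₀ hwu]
    obtain ⟨t, ht, hti⟩ := exists_shift D hu₀ hu₀u (hw.smul (F₀.inv_mem hcF)) hw1
    set c := f w u₀
    have e1 : w = c • (c⁻¹ • w + t • u₀) + (-(c * t)) • u₀ := by
      rw [smul_add, smul_smul, smul_smul, mul_inv_cancel₀ hwu]; module
    rw [e1]
    refine hadd _ _ (hiso _ (((hw.smul (F₀.inv_mem hcF)).add (hu₀.smul ht)).smul hcF) ?_ ?_ ?_)
      (hiso _ (hu₀.smul (F₀.neg_mem (F₀.mul_mem hcF ht))) ?_ ?_ ?_)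
    · rw [hf.smul_left, smul_right hf, hti, mul_zero, mul_zero]
    · simp [hf.smul_left, hf.add_left, hwe, hu₀e]
    · simp [hf.smul_left, hf.add_left, hwe', hu₀e']
    · rw [hf.smul_left, smul_right hf, hu₀u, mul_zero, mul_zero]
    · simp [neg_left hf, hf.smul_left, hu₀e]
    · simp [neg_left hf, hf.smul_left, hu₀e']
  intro w hw hwe hwe'
  by_cases hwu : f w u₀ = 0
  swap
  · exact hmain w hw hwe hwe' hwu
  obtain ⟨x', hx'⟩ : ∃ x', x' = x - f x e' • e - f x e • e' := ⟨_, rfl⟩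
  have hx'r : Rat F₀ x' := hx' ▸ (hx.sub (he.smul (D.rat _ _ hx he'))).sub (he'.smul (D.rat _ _ hx he))
  have hx'e : f x' e = 0 := hx' ▸ (hπ x).1
  have hx'e' : f x' e' = 0 := hx' ▸ (hπ x).2
  have hx'u : f x' u₀ ≠ 0 := by
    rw [hx', sub_left hf, sub_left hf, hf.smul_left, hf.smul_left, orth_comm hf hu₀e, orth_comm hf hu₀e']
    simpa using hxu
  have h1 : P (w + x') := hmain _ (hw.add hx'r) (by rw [hf.add_left, hwe, hx'e, add_zero])
    (by rw [hf.add_left, hwe', hx'e', add_zero]) (by rw [hf.add_left, hwu, zero_add]; exact hx'u)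
  have h2 : P (-x') := hmain _ (fun i => F₀.neg_mem (hx'r i)) (by rw [neg_left hf, hx'e, neg_zero])
    (by rw [neg_left hf, hx'e', neg_zero]) (by rw [neg_left hf]; exact neg_ne_zero.2 hx'u)
  simpa using hadd _ _ h1 h2

include D in
theorem exists_iso_pair_ne (hn : 5 ≤ Fintype.card ι) {y : ι → F} (hy : y ≠ 0) :
    ∃ z : ι → F, Rat F₀ z ∧ f z z = 0 ∧ f z y ≠ 0 := by
  have hf := D.herm
  by_contra hno
  push Not at hno
  obtain ⟨x, hx, hxy⟩ := exists_rat_pair_ne D hy
  refine hxy (iso_induction D (e := 0) (e' := 0) (fun _ => F₀.zero_mem) (fun _ => F₀.zero_mem) hn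
    (fun x => ⟨zero_right hf _, zero_right hf _⟩) (fun x => f x y = 0)
    (fun a b ha hb => by rw [hf.add_left, ha, hb, add_zero]) (fun a ha haa _ _ => hno a ha haa)
    x hx (zero_right hf _) (zero_right hf _))

include D in
theorem centre_rat (hn : 5 ≤ Fintype.card ι) {a : ι → F} (hac : Centre D.herm M a) (ha : Rat F₀ a)
    (ha0 : a ≠ 0) {v : ι → F} (hv : Rat F₀ v) (hvv : f v v = 0) : Centre D.herm M v := by
  have hf := D.herm
  by_cases hv0 : v = 0
  · have := hac.smul 0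
    rwa [zero_smul, ← hv0] at this
  have hmove : ∀ u w, Rat F₀ u → Rat F₀ w → f w w = 0 → f u w ≠ 0 → Centre hf M u → Centre hf M w := by
    intro u w hu hw hww huw hc
    have hs : δ / f u w ∈ F₀ := F₀.div_mem D.delta_mem (D.rat _ _ hu hw)
    set u' := (δ / f u w) • u with hu'
    have hu'r : Rat F₀ u' := hu.smul hs
    have hu'w : f u' w = δ := by rw [hu', hf.smul_left, div_mul_cancel₀ _ huw]
    have hu'u : f u' u' = 0 := by rw [hu', hf.smul_left, smul_right hf, hc.iso, mul_zero, mul_zero]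
    have hwu' : f w u' = σ δ := by rw [hf.herm, hu'w]
    have hdiff : f (w - u') (w - u') = 0 := by
      rw [sub_left hf, sub_right hf, sub_right hf, hww, hu'u, hwu', hu'w]
      linear_combination -D.delta_tr
    obtain ⟨-, g, hg, hgx⟩ := tmem_rat D (hw.sub hu'r) hdiff (F₀.inv_mem D.delta_mem)
      (by rw [map_inv₀, show σ δ = -δ by linear_combination D.delta_tr, inv_neg, add_neg_cancel])
    have hgu : (g : Matrix ι ι F) *ᵥ u' = w := by
      rw [hgx, sub_right hf, hu'u, hu'w, sub_zero, inv_mul_cancel₀ D.delta_ne, one_smul, add_sub_cancel]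
    rw [← hgu]
    exact (hc.smul _).image hg (D.iso _ hg)
  obtain ⟨z₁, hz₁, hz₁z, hz₁a⟩ := exists_iso_pair_ne D hn ha0
  obtain ⟨z₂, hz₂, hz₂z, hz₂v⟩ := exists_iso_pair_ne D hn hv0
  obtain ⟨z, hz, hzz, hza, hzv⟩ : ∃ z : ι → F, Rat F₀ z ∧ f z z = 0 ∧ f z a ≠ 0 ∧ f z v ≠ 0 := by
    by_cases h1 : f z₁ v = 0
    · by_cases h2 : f z₂ a = 0
      · obtain ⟨c, hc, hc0, hct⟩ : ∃ c ∈ F₀, c ≠ 0 ∧ σ c * f z₂ z₁ + c * f z₁ z₂ = 0 := by
          by_cases h12 : f z₁ z₂ = 0
          · exact ⟨1, F₀.one_mem, one_ne_zero, by rw [h12, orth_comm hf h12]; ring⟩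
          · refine ⟨δ / f z₁ z₂, F₀.div_mem D.delta_mem (D.rat _ _ hz₁ hz₂),
              div_ne_zero D.delta_ne h12, ?_⟩
            rw [hf.herm z₂ z₁, ← map_mul, div_mul_cancel₀ _ h12]
            linear_combination D.delta_tr
        refine ⟨z₂ + c • z₁, hz₂.add (hz₁.smul hc), ?_, ?_, ?_⟩
        · rw [norm_add_smul hf, hz₁z, hz₂z]; linear_combination hct
        · rw [hf.add_left, hf.smul_left, h2, zero_add]; exact mul_ne_zero hc0 hz₁a
        · rw [hf.add_left, hf.smul_left, h1, mul_zero, add_zero]; exact hz₂v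
      · exact ⟨z₂, hz₂, hz₂z, h2, hz₂v⟩
    · exact ⟨z₁, hz₁, hz₁z, hz₁a, h1⟩
  exact hmove z v hz hv hvv hzv (hmove a z ha hz hzz (fun h => hza (orth_comm hf h)) hac)

include D in
theorem exists_iso_moved (hn : 5 ≤ Fintype.card ι) {g : GL ι F}
    (hgH : g ∉ Cfsg.Geo.subfieldSubgroup F₀ 1) :
    ∃ v, Rat F₀ v ∧ f v v = 0 ∧ ¬ RatLine F₀ ((g : Matrix ι ι F) *ᵥ v) := by
  have hf := D.herm
  by_contra hno
  push Not at hno
  apply hgH
  obtain ⟨e, he, he0, hee, -⟩ := exists_iso_rat D (k := 0) (by omega) ![] (fun a => a.elim0)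
  obtain ⟨s, e', he', hge⟩ := hno e he hee
  have hinj : ∀ v, (g : Matrix ι ι F) *ᵥ v = 0 → v = 0 := fun v h => by
    rw [← inv_mulVec_mulVec g v, h, mulVec_zero]
  have hs0 : s ≠ 0 := fun h => he0 (hinj e (by rw [hge, h, zero_smul]))
  have he'0 : e' ≠ 0 := fun h => he0 (hinj e (by rw [hge, h, smul_zero]))
  set T : (ι → F) → Prop := fun x => ∃ w, Rat F₀ w ∧ (g : Matrix ι ι F) *ᵥ x = s • w with hT
  have hTadd : ∀ x y, T x → T y → T (x + y) := by
    rintro x y ⟨w, hw, hwe⟩ ⟨w', hw', hwe'⟩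
    exact ⟨w + w', hw.add hw', by rw [mulVec_add, hwe, hwe', smul_add]⟩
  have hTsmul : ∀ c ∈ F₀, ∀ x, T x → T (c • x) := by
    rintro c hc x ⟨w, hw, hwe⟩
    exact ⟨c • w, hw.smul hc, by rw [mulVec_smul, hwe, smul_comm]⟩
  have hTiso : ∀ y, Rat F₀ y → f y y = 0 → f y e ≠ 0 → T y := by
    intro y hy hyy hye
    obtain ⟨sy, y', hy', hgy⟩ := hno y hy hyy
    set c := δ / f y e with hc
    have hcF : c ∈ F₀ := F₀.div_mem D.delta_mem (D.rat _ _ hy he)
    have hc0 : c ≠ 0 := div_ne_zero D.delta_ne hye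
    have hz : f (e + c • y) (e + c • y) = 0 := by
      rw [norm_add_smul hf, hee, hyy, hf.herm e y, ← map_mul, hc, div_mul_cancel₀ _ hye]
      linear_combination D.delta_tr
    obtain ⟨t, z', hz', hgz⟩ := hno (e + c • y) (he.add (hy.smul hcF)) hz
    rw [mulVec_add, mulVec_smul, hge, hgy, smul_smul] at hgz
    have hli : ∀ k : F, y' ≠ k • e' := fun k hk => hye (by
      have : y = (sy * k / s) • e := by
        rw [← inv_mulVec_mulVec g y, ← inv_mulVec_mulVec g e, hgy, hge, hk, mulVec_smul, mulVec_smul,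
          mulVec_smul, smul_smul, smul_smul]
        congr 1; field_simp
      rw [this, hf.smul_left, hee, mul_zero])
    obtain ⟨φ, hφ, hφe, hφy⟩ : ∃ φ, RatD F₀ φ ∧ φ e' = 0 ∧ φ y' ≠ 0 := by
      by_contra h
      push Not at h
      obtain ⟨k, hk⟩ := mem_line_of_forall he' he'0 h
      exact hli k hk
    obtain ⟨ψ, hψ, hψy, hψe⟩ : ∃ ψ, RatD F₀ ψ ∧ ψ y' = 0 ∧ ψ e' ≠ 0 := by
      by_contra h
      push Not at h
      have hy'0 : y' ≠ 0 := fun h0 => hli 0 (by rw [h0, zero_smul])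
      obtain ⟨k, hk⟩ := mem_line_of_forall hy' hy'0 h
      have hk0 : k ≠ 0 := fun h0 => he'0 (by rw [hk, h0, zero_smul])
      exact hli k⁻¹ (by rw [hk, inv_smul_smul₀ hk0])
    have h1 := congrArg φ hgz
    have h2 := congrArg ψ hgz
    simp only [map_add, map_smul, smul_eq_mul, hφe, hψy, mul_zero, zero_add, add_zero] at h1 h2
    have hψz : ψ z' ≠ 0 := fun h => by
      rw [h, mul_zero, mul_eq_zero] at h2
      exact h2.elim hs0 hψe
    have hratio : sy = s * (ψ e' * φ z' / (c * φ y' * ψ z')) := by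
      field_simp
      linear_combination ψ z' * h1 - φ z' * h2
    refine ⟨(ψ e' * φ z' / (c * φ y' * ψ z')) • y', hy'.smul ?_, by rw [hgy, smul_smul, ← hratio]⟩
    exact F₀.div_mem (F₀.mul_mem (hψ.apply_mem he') (hφ.apply_mem hz'))
      (F₀.mul_mem (F₀.mul_mem hcF (hφ.apply_mem hy')) (hψ.apply_mem hz'))
  have hTe : T e := ⟨e', he', hge⟩
  have hne : ∀ x, Rat F₀ x → f x e ≠ 0 → T x := by
    intro x hx hxe
    have hcF := D.rat _ _ hx he
    have hx1 : f ((f x e)⁻¹ • x) e = 1 := by rw [hf.smul_left, inv_mul_cancel₀ hxe]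
    obtain ⟨t, ht, hti⟩ := exists_shift D he hee (hx.smul (F₀.inv_mem hcF)) hx1
    set c := f x e
    have e1 : x = c • ((c⁻¹ • x + t • e) + (-t) • e) := by
      rw [add_assoc, ← add_smul, add_neg_cancel, zero_smul, add_zero, smul_smul, mul_inv_cancel₀ hxe, one_smul]
    rw [e1]
    refine hTsmul c hcF _ (hTadd _ _ (hTiso _ ((hx.smul (F₀.inv_mem hcF)).add (he.smul ht)) hti ?_)
      (hTsmul _ (F₀.neg_mem ht) _ hTe))
    rw [hf.add_left, hx1, hf.smul_left, hee, mul_zero, add_zero]; exact one_ne_zero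
  obtain ⟨x₁, hx₁, hx₁e⟩ := exists_rat_pair_ne D he0
  refine mem_subfield_of_ratLine fun x hx => ?_
  obtain ⟨w, hw, hwe⟩ : T x := by
    by_cases hxe : f x e = 0
    · have h1 := hne (x + x₁) (hx.add hx₁) (by rw [hf.add_left, hxe, zero_add]; exact hx₁e)
      have h2 := hne (-x₁) (fun i => F₀.neg_mem (hx₁ i)) (by rw [neg_left hf]; exact neg_ne_zero.2 hx₁e)
      simpa using hTadd _ _ h1 h2
    · exact hne x hx hxe
  exact ⟨s, w, hw, hwe⟩

include D in
/-- All isotropic vectors are centres as soon as the rational ones are. -/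
theorem centre_of_rat (hn : 5 ≤ Fintype.card ι)
    (hC : ∀ v, Rat F₀ v → f v v = 0 → Centre D.herm M v) {y : ι → F} (hyy : f y y = 0) :
    Centre D.herm M y := by
  classical
  have hf := D.herm
  by_cases hy0 : y = 0
  · have := (hC 0 (fun _ => F₀.zero_mem) (zero_left hf _))
    rwa [hy0]
  obtain ⟨e, he, hee, hey⟩ := exists_iso_pair_ne D hn hy0
  have he0 : e ≠ 0 := fun h => hey (by rw [h, zero_left hf])
  obtain ⟨y₁, hy₁, hy₁e⟩ := exists_rat_pair_ne D he0
  obtain ⟨y₂, hy₂, hy₂e⟩ : ∃ y₂, Rat F₀ y₂ ∧ f y₂ e = 1 :=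
    ⟨(f y₁ e)⁻¹ • y₁, hy₁.smul (F₀.inv_mem (D.rat _ _ hy₁ he)), by rw [hf.smul_left, inv_mul_cancel₀ hy₁e]⟩
  obtain ⟨t₀, ht₀, he'e'⟩ := exists_shift D he hee hy₂ hy₂e
  obtain ⟨e', he'⟩ : ∃ e', e' = y₂ + t₀ • e := ⟨_, rfl⟩
  rw [← he'] at he'e'
  have he'r : Rat F₀ e' := he' ▸ hy₂.add (he.smul ht₀)
  have he'e : f e' e = 1 := by rw [he', hf.add_left, hf.smul_left, hee, hy₂e, mul_zero, add_zero]
  have hee' : f e e' = 1 := by rw [hf.herm, he'e, map_one]
  have hπ : ∀ x, f (x - f x e' • e - f x e • e') e = 0 ∧ f (x - f x e' • e - f x e • e') e' = 0 :=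
    fun x => ⟨by simp [sub_left hf, hf.smul_left, hee, he'e], by simp [sub_left hf, hf.smul_left, hee', he'e']⟩
  have hCe := hC e he hee
  -- the projections of root elements
  set L : (ι → F) → Prop := fun v => f v e = 0 ∧ ∃ z, YMem f M e v z ∧ z + σ z + f v v = 0 with hL
  have hadjust : ∀ v z, L v → z + σ z + f v v = 0 → YMem f M e v z := by
    rintro v z ⟨hve, z₁, hY, hz₁⟩ hz
    have hd : (z - z₁) + σ (z - z₁) = 0 := by rw [map_sub]; linear_combination hz - hz₁
    obtain ⟨-, g, hg, hgx⟩ := TMem.of_centre hCe hd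
    have hT : YMem f M e 0 (z - z₁) :=
      ⟨zero_left hf e, g, hg, fun x => by rw [hgx]; simp [rootFun, zero_right hf]⟩
    have := hT.mul hf hee hY
    rwa [zero_add, zero_right hf, sub_zero, sub_add_cancel] at this
  have hLadd : ∀ v v', L v → L v' → L (v + v') := by
    rintro v v' ⟨hv, z, hY, hz⟩ ⟨hv', z', hY', hz'⟩
    refine ⟨by rw [hf.add_left, hv, hv', add_zero], _, hY.mul hf hee hY', ?_⟩
    rw [map_sub, map_add, ← hf.herm v v', hf.add_left, add_right hf, add_right hf]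
    linear_combination hz + hz'
  have hσδ : σ δ = -δ := by linear_combination D.delta_tr
  have hLiso : ∀ u, Rat F₀ u → f u u = 0 → f u e = 0 → f u e' = 0 → ∀ τ : F, L (τ • u) := by
    intro u hu huu hue hue'
    by_cases hu0 : u = 0
    · intro τ
      rw [hu0, smul_zero]
      exact ⟨zero_left hf e, 0, ymem_rat D he hee (fun _ => F₀.zero_mem) (zero_left hf e) F₀.zero_mem
        (by simp [zero_left hf]), by simp [zero_left hf]⟩
    have hCu := hC u hu huu
    have key : ∀ c t : F, c + σ c = 0 → t ∈ F₀ → L ((c * t) • u) := by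
      intro c t hc ht
      obtain ⟨x₁, hx₁, hx₁u⟩ := exists_rat_pair_ne D hu0
      obtain ⟨x, hxr, hxu⟩ : ∃ x, Rat F₀ x ∧ f x u = t :=
        ⟨(t / f x₁ u) • x₁, hx₁.smul (F₀.div_mem ht (D.rat _ _ hx₁ hu)),
          by rw [hf.smul_left, div_mul_cancel₀ _ hx₁u]⟩
      obtain ⟨v, hv⟩ : ∃ v, v = x - f x e • e' := ⟨_, rfl⟩
      have hvr : Rat F₀ v := hv ▸ hxr.sub (he'r.smul (D.rat _ _ hxr he))
      have hve : f v e = 0 := by rw [hv, sub_left hf, hf.smul_left, he'e, mul_one, sub_self]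
      have hvu : f v u = t := by rw [hv, sub_left hf, hf.smul_left, orth_comm hf hue', mul_zero, sub_zero, hxu]
      obtain ⟨z, hY⟩ := exists_root_rat D he hee hvr hve
      obtain ⟨-, g, hg, hgx⟩ := TMem.of_centre hCu hc
      have hge : (g : Matrix ι ι F) *ᵥ e = e := by rw [hgx, orth_comm hf hue]; simp
      have h2 := (hY.conj hf hg (D.iso _ hg) hge).mul hf hee (hY.inv hf hee)
      have hgv : (g : Matrix ι ι F) *ᵥ v + -v = (c * t) • u := by rw [hgx, hvu]; abel
      rw [hgv] at h2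
      refine ⟨by rw [hf.smul_left, hue, mul_zero], _, h2, ?_⟩
      have huv : f u v = σ t := by rw [hf.herm, hvu]
      rw [hgx, neg_left hf, add_right hf, smul_right hf, hvu, hf.smul_left, smul_right hf, huu]
      simp only [map_add, map_sub, map_neg, map_mul, hf.involutive, norm_fixed hf]
      linear_combination (t * σ t) * hc
    intro τ
    obtain ⟨z₀, hz₀, hz₀ne⟩ := D.conj_ne
    set x := τ / δ with hx
    set B := (x - σ x) / (z₀ - σ z₀) with hB
    have hd : z₀ - σ z₀ ≠ 0 := sub_ne_zero.2 (Ne.symm hz₀ne)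
    have hσB : σ B = B := by
      rw [hB, map_div₀, map_sub, map_sub, hf.involutive, hf.involutive, ← neg_sub x, ← neg_sub z₀, neg_div_neg_eq]
    have hσA : σ (x - B * z₀) = x - B * z₀ := by
      rw [map_sub, map_mul, hσB]
      have : B * (z₀ - σ z₀) = x - σ x := div_mul_cancel₀ _ hd
      linear_combination this
    have e1 : τ = (δ * (x - B * z₀)) * 1 + (δ * B) * z₀ := by
      have hτ : δ * x = τ := by rw [hx, mul_div_cancel₀ _ D.delta_ne]
      linear_combination -hτ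
    rw [e1, add_smul]
    exact hLadd _ _ (key _ _ (by rw [map_mul, hσA, hσδ]; ring) F₀.one_mem)
      (key _ _ (by rw [map_mul, hσB, hσδ]; ring) hz₀)
  have hLrat : ∀ u, Rat F₀ u → f u e = 0 → f u e' = 0 → ∀ τ : F, L (τ • u) :=
    iso_induction D he he'r hn hπ (fun u => ∀ τ : F, L (τ • u))
      (fun a b ha hb τ => by rw [smul_add]; exact hLadd _ _ (ha τ) (hb τ)) hLiso
  have hLall : ∀ (v : ι → F), L (v - f v e' • e - f v e • e') := by
    intro v
    have key : ∀ S : Finset ι, L ((∑ i ∈ S, v i • Pi.single i (1 : F)) -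
        f (∑ i ∈ S, v i • Pi.single i (1 : F)) e' • e - f (∑ i ∈ S, v i • Pi.single i (1 : F)) e • e') := by
      intro S
      induction S using Finset.induction_on with
      | empty =>
        simp [zero_left hf]
        exact ⟨zero_left hf e, 0, ymem_rat D he hee (fun _ => F₀.zero_mem) (zero_left hf e) F₀.zero_mem
          (by simp [zero_left hf]), by simp [zero_left hf]⟩
      | @insert i S hi ih =>
        have h1 := hLrat (Pi.single i (1 : F) - f (Pi.single i (1 : F)) e' • e - f (Pi.single i (1 : F)) e • e')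
          (((rat_single i).sub (he.smul (D.rat _ _ (rat_single i) he'r))).sub
            (he'r.smul (D.rat _ _ (rat_single i) he))) (hπ _).1 (hπ _).2 (v i)
        have h2 := hLadd _ _ h1 ih
        convert h2 using 1
        rw [Finset.sum_insert hi, hf.add_left, hf.add_left, hf.smul_left, hf.smul_left]
        module
    have := key Finset.univ
    rwa [← pi_eq_sum_univ' v] at this
  -- moving `e'` to `y`
  have hye : f y e ≠ 0 := fun h => hey (orth_comm hf h)
  obtain ⟨y', hy'⟩ : ∃ y', y' = (f y e)⁻¹ • y := ⟨_, rfl⟩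
  have hy'y' : f y' y' = 0 := by rw [hy', hf.smul_left, smul_right hf, hyy, mul_zero, mul_zero]
  have hy'e : f y' e = 1 := by rw [hy', hf.smul_left, inv_mul_cancel₀ hye]
  obtain ⟨w, hw⟩ : ∃ w, w = y' - f y' e' • e - f y' e • e' := ⟨_, rfl⟩
  have hwe : f w e = 0 := hw ▸ (hπ y').1
  have hwe' : f w e' = 0 := hw ▸ (hπ y').2
  have hLw : L (-w) := by
    have h3 := hLall (-y')
    convert h3 using 1
    rw [hw, neg_left hf, neg_left hf]
    module
  have htr : f y' e' + σ (f y' e') + f (-w) (-w) = 0 := by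
    have hy'eq : y' = w + f y' e' • e + e' := by rw [hw, hy'e]; module
    have h4 := hy'y'
    conv_lhs at h4 => rw [hy'eq]
    simp [hf.add_left, add_right hf, hf.smul_left, smul_right hf, hee, he'e, hee', he'e', hwe, hwe',
      orth_comm hf hwe, orth_comm hf hwe'] at h4
    rw [neg_left hf, neg_right hf, neg_neg]
    linear_combination h4
  obtain ⟨-, g, hg, hgx⟩ := hadjust (-w) (f y' e') hLw htr
  have hgy : (g : Matrix ι ι F) *ᵥ e' = y' := by
    rw [hgx, rootFun, neg_right hf, orth_comm hf hwe', he'e, hw, hy'e]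
    module
  have := ((hC e' he'r he'e').image hg (D.iso _ hg)).smul (f y e)
  rwa [hgy, hy', smul_smul, mul_inv_cancel₀ hye, one_smul] at this

include D in
/-- A subgroup strictly above the subfield group has all centres. -/
theorem centre_of_not_le {r : ℕ} (hr : r.Prime) (hcard : Fintype.card F = Nat.card F₀ ^ r) (h3 : 3 ≤ r)
    (hcardE : Nat.card (fixF σ) = Nat.card (F₀.comap (fixF σ).subtype) ^ r)
    (hn : 13 ≤ Fintype.card ι) {g : GL ι F} (hg : g ∈ M) (hgH : g ∉ Cfsg.Geo.subfieldSubgroup F₀ 1) :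
    ∀ y, f y y = 0 → Centre D.herm M y := by
  obtain ⟨v, hv, hvv, hvL⟩ := exists_iso_moved D (by omega) hgH
  obtain ⟨a, ha, ha0, haa, ν, hν, hνt, hνM⟩ := long_root_exists D hr hcard h3 hcardE hn D.delta_ne
    D.delta_tr ((tmem_rat D hv hvv D.delta_mem D.delta_tr).conj hg (D.iso g hg)) hvL
  have hac := centre_of_root D hr hcardE ha ha0 haa hν hνt hνM
  exact fun y hy => centre_of_rat D (by omega) (fun u hu huu => centre_rat D (by omega) hac ha ha0 hu huu) hy

/-- The fixed field has square root order. -/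
theorem card_fix_sq (hinv : ∀ a, σ (σ a) = a) (S : Subfield F) (hS : ∀ x ∈ S, σ x ∈ S)
    (hne : ∃ z ∈ S, σ z ≠ z) :
    Nat.card (S.comap (fixF σ).subtype) ^ 2 = Nat.card S := by
  obtain ⟨z, hz, hzne⟩ := hne
  have hd : z - σ z ≠ 0 := sub_ne_zero.2 (Ne.symm hzne)
  let φ : (S.comap (fixF σ).subtype) × (S.comap (fixF σ).subtype) → S := fun c =>
    ⟨((c.1 : fixF σ) : F) + ((c.2 : fixF σ) : F) * z, S.add_mem c.1.2 (S.mul_mem c.2.2 hz)⟩
  have hσ : ∀ c : S.comap (fixF σ).subtype, σ ((c : fixF σ) : F) = ((c : fixF σ) : F) := fun c => (c : fixF σ).2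
  have hbij : Function.Bijective φ := by
    constructor
    · intro c d hcd
      have h := congrArg Subtype.val hcd
      simp only [φ] at h
      have h' := congrArg σ h
      rw [map_add, map_add, map_mul, map_mul, hσ, hσ, hσ, hσ] at h'
      have e2 : ((c.2 : fixF σ) : F) = ((d.2 : fixF σ) : F) :=
        mul_right_cancel₀ hd (by linear_combination h - h')
      have e1 : ((c.1 : fixF σ) : F) = ((d.1 : fixF σ) : F) := by rw [e2] at h; exact add_right_cancel h
      exact Prod.ext (Subtype.ext (Subtype.ext e1)) (Subtype.ext (Subtype.ext e2))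
    · intro x
      have h1 : σ (((x : F) - σ x) / (z - σ z)) = ((x : F) - σ x) / (z - σ z) := by
        rw [map_div₀, map_sub, map_sub, hinv, hinv, ← neg_sub (x : F), ← neg_sub z, neg_div_neg_eq]
      have h1F : ((x : F) - σ x) / (z - σ z) ∈ S :=
        S.div_mem (S.sub_mem x.2 (hS _ x.2)) (S.sub_mem hz (hS _ hz))
      have h2 : σ ((x : F) - ((x : F) - σ x) / (z - σ z) * z) = (x : F) - ((x : F) - σ x) / (z - σ z) * z := by
        rw [map_sub, map_mul, h1]
        field_simp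
        ring
      exact ⟨(⟨⟨_, h2⟩, S.sub_mem x.2 (S.mul_mem h1F hz)⟩, ⟨⟨_, h1⟩, h1F⟩), Subtype.ext (by simp [φ])⟩
  rw [sq, ← Nat.card_prod, Nat.card_eq_of_bijective φ hbij]

/-- The subfield subgroups are maximal in the special unitary group. -/
theorem subfield_maximal_su {n q : ℕ} (hF : Fintype.card F = q ^ 2) (hn : 13 ≤ n) (F₀ : Subfield F)
    {r : ℕ} (hr : r.Prime) (hro : Odd r) (hcard : Fintype.card F = Nat.card F₀ ^ r)
    (P : GL (Fin n) F) (hP : Cfsg.Geo.IsFormRationalStructure (Cfsg.hermForm n F q) F₀ 1 P) :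
    Cfsg.Geo.IsMaximalIn (Cfsg.GU n F q ⊓ Cfsg.Geo.specialLinear (Fin n) F)
      (Cfsg.Geo.subfieldSubgroup F₀ P ⊓ (Cfsg.GU n F q ⊓ Cfsg.Geo.specialLinear (Fin n) F)) := by
  classical
  obtain ⟨σ, hσ, hstd⟩ := CfsgLib.LinAlg.Witt.exists_isUnitaryForm_hermForm (n := n) hF
  have h3 : 3 ≤ r := by
    rcases hro with ⟨k, hk⟩
    have := hr.two_le
    omega
  have hF0 : F₀ ≠ ⊤ := by
    intro h
    have e : Nat.card F₀ = Fintype.card F := by
      rw [h, Nat.card_congr Subfield.topEquiv.toEquiv, Nat.card_eq_fintype_card]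
    rw [e] at hcard
    have := lt_self_pow₀ (Fintype.one_lt_card (α := F)) hr.one_lt
    omega
  have hconj : ∀ x ∈ F₀, σ x ∈ F₀ := fun x hx => hσ x ▸ F₀.pow_mem hx q
  have hEsq : Nat.card (fixF σ) ^ 2 = Fintype.card F := by
    have hne : ∃ z ∈ (⊤ : Subfield F), σ z ≠ z := by
      by_contra h
      push Not at h
      exact hstd.ne_refl (RingEquiv.ext fun x => h x trivial)
    have := card_fix_sq hstd.involutive ⊤ (fun _ _ => trivial) hne
    rwa [Subfield.comap_top, Nat.card_congr Subfield.topEquiv.toEquiv, Nat.card_congr Subfield.topEquiv.toEquiv,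
      Nat.card_eq_fintype_card (α := F)] at this
  have hne : ∃ z ∈ F₀, σ z ≠ z := by
    by_contra h
    push Not at h
    haveI := Fintype.ofFinite (fixF σ)
    have heq : Nat.card (F₀.comap (fixF σ).subtype) = Nat.card F₀ :=
      Nat.card_congr
        { toFun := fun x => ⟨((x : fixF σ) : F), x.2⟩
          invFun := fun x => ⟨⟨x, h x x.2⟩, x.2⟩
          left_inv := fun x => rfl
          right_inv := fun x => rfl }
    obtain ⟨m, -, hm⟩ := CfsgLib.Dickson.exists_pow_card (F₀.comap (fixF σ).subtype)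
    rw [heq, ← Nat.card_eq_fintype_card] at hm
    rw [← hm, hcard, ← pow_mul] at hEsq
    have := Nat.pow_right_injective Finite.one_lt_card hEsq
    rcases hro with ⟨k, hk⟩
    omega
  have hcardE : Nat.card (fixF σ) = Nat.card (F₀.comap (fixF σ).subtype) ^ r := by
    apply Nat.pow_left_injective two_ne_zero
    show Nat.card (fixF σ) ^ 2 = (Nat.card (F₀.comap (fixF σ).subtype) ^ r) ^ 2
    rw [hEsq, hcard, ← pow_mul, mul_comm r 2, pow_mul, card_fix_sq hstd.involutive F₀ hconj hne]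
  obtain ⟨z, hz, hzne⟩ := hne
  refine ⟨lt_of_le_of_ne inf_le_right fun h => ?_, fun M hHM hMS => ?_⟩
  · exact CfsgLib.AschPrime.not_le_subfieldSubgroup hF (by omega) hF0 P (h ▸ inf_le_left)
  by_cases hle : M ≤ Cfsg.Geo.subfieldSubgroup F₀ P
  · exact Or.inl (le_antisymm (le_inf hle hMS) hHM)
  refine Or.inr (le_antisymm hMS ?_)
  obtain ⟨g, hg, hgH⟩ := SetLike.not_le_iff_exists.mp hle
  let f : (Fin n → F) → (Fin n → F) → F := fun x y =>
    Cfsg.hermForm n F q ((P : Matrix (Fin n) (Fin n) F) *ᵥ x) ((P : Matrix (Fin n) (Fin n) F) *ᵥ y)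
  have hPinj : ∀ v : Fin n → F, v ≠ 0 → (P : Matrix (Fin n) (Fin n) F) *ᵥ v ≠ 0 := fun v hv h => hv (by
    rw [← inv_mulVec_mulVec P v, h, mulVec_zero])
  have hf : Cfsg.Geo.IsUnitaryForm σ f :=
    { ne_refl := hstd.ne_refl
      involutive := hstd.involutive
      add_left := fun x y v => by simp [f, mulVec_add, hstd.add_left]
      smul_left := fun c x v => by simp [f, mulVec_smul, hstd.smul_left]
      herm := fun v w => hstd.herm _ _
      nondegenerate := fun v hv => by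
        obtain ⟨⟨x, hx⟩, ⟨y, hy⟩⟩ := hstd.nondegenerate _ (hPinj v hv)
        refine ⟨⟨((P⁻¹ : GL (Fin n) F) : Matrix (Fin n) (Fin n) F) *ᵥ x, ?_⟩,
          ⟨((P⁻¹ : GL (Fin n) F) : Matrix (Fin n) (Fin n) F) *ᵥ y, ?_⟩⟩
        · simp only [f, mulVec_inv_mulVec]; exact hx
        · simp only [f, mulVec_inv_mulVec]; exact hy }
  set c := (MulAut.conj P).toMonoidHom with hc
  have e0 : ∀ (x : GL (Fin n) F) (u : Fin n → F), (c x : GL (Fin n) F).val *ᵥ ((P : Matrix (Fin n) (Fin n) F) *ᵥ u)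
      = (P : Matrix (Fin n) (Fin n) F) *ᵥ ((x : Matrix (Fin n) (Fin n) F) *ᵥ u) := by
    intro x u
    rw [hc, MulEquiv.coe_toMonoidHom, MulAut.conj_apply, Units.val_mul, Units.val_mul, ← mulVec_mulVec,
      ← mulVec_mulVec, inv_mulVec_mulVec]
  have hmem : ∀ x : GL (Fin n) F, c x ∈ Cfsg.GU n F q ⊓ Cfsg.Geo.specialLinear (Fin n) F ↔
      Iso f x ∧ x ∈ Cfsg.Geo.specialLinear (Fin n) F := by
    intro x
    rw [CfsgLib.UnitCentres.mem_special]
    refine and_congr ⟨fun h u v => ?_, fun h u v => ?_⟩ ?_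
    · simp only [f, ← e0, h _ _]
    · have := h (((P⁻¹ : GL (Fin n) F) : Matrix (Fin n) (Fin n) F) *ᵥ u)
        (((P⁻¹ : GL (Fin n) F) : Matrix (Fin n) (Fin n) F) *ᵥ v)
      simp only [f, mulVec_inv_mulVec] at this
      rw [← e0 x, ← e0 x, mulVec_inv_mulVec, mulVec_inv_mulVec] at this
      exact this
    · simp [Cfsg.Geo.specialLinear, c]
  obtain ⟨δ, hδ, hδ0, hδt⟩ : ∃ δ ∈ F₀, δ ≠ 0 ∧ δ + σ δ = 0 :=
    ⟨z - σ z, F₀.sub_mem hz (hconj z hz), sub_ne_zero.2 (Ne.symm hzne), by rw [map_sub, hstd.involutive]; ring⟩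
  have D : RatData σ f F₀ (M.comap c) δ :=
    { herm := hf
      rat := fun u v hu hv => by simpa [f] using hP u v hu hv
      conj_mem := hconj
      delta_mem := hδ
      delta_ne := hδ0
      delta_tr := hδt
      conj_ne := ⟨z, hz, hzne⟩
      iso := fun x hx => ((hmem x).1 (hMS hx)).1
      rat_mem := fun x hx hxS hxr => hHM ⟨Subgroup.mem_map.mpr ⟨x, by
          simpa [Cfsg.Geo.subfieldSubgroup] using
            (mem_subfield_of_ratLine fun v hv => ⟨1, _, hxr v hv, (one_smul _ _).symm⟩ :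
              x ∈ Cfsg.Geo.subfieldSubgroup F₀ 1), rfl⟩, (hmem x).2 ⟨hx, hxS⟩⟩ }
  have hC := centre_of_not_le D hr hcard h3 hcardE (by simpa using hn) (g := P⁻¹ * g * P)
    (by simpa [c, ← mul_assoc] using hg) (by
      intro hm
      apply hgH
      simp only [Cfsg.Geo.subfieldSubgroup, Subgroup.mem_map] at hm ⊢
      obtain ⟨y, hy, hye⟩ := hm
      exact ⟨y, hy, by simp_all [mul_assoc]⟩)
  refine CfsgLib.UnitCentres.gu_le_of_centres hF (by omega) hσ hstd fun v hv => ⟨hv, fun d hd => ?_⟩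
  obtain ⟨hu, hM'⟩ := hC (((P⁻¹ : GL (Fin n) F) : Matrix (Fin n) (Fin n) F) *ᵥ v)
    (by simpa only [f, mulVec_inv_mulVec] using hv)
  have h5 : c (uT hf hu d) ∈ M := hM' d hd
  convert h5 using 1
  apply ext_mulVec
  intro x
  conv_rhs => rw [← mulVec_inv_mulVec P x, e0, uT_mulVec, mulVec_add, mulVec_smul, mulVec_inv_mulVec]
  rw [uT_mulVec]
  simp only [f, mulVec_inv_mulVec]

end CfsgLib.Subfield54.SU
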