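import Mathlib
import Cfsg.Agent.Subfield54.SL
import Cfsg.Agent.Classical.AltFormTransv

/-!
Root elements at a rational vector of an alternating form.
-/

set_option autoImplicit false

namespace CfsgLib.Subfield54.Sp

open Matrix CfsgLib.TransvGL CfsgLib.AltFormTransv

variable {ι : Type} [Fintype ι] [DecidableEq ι] {F : Type*} [Field F] {F₀ : Subfield F}
variable {f : (ι → F) → (ι → F) → F}

theorem neg_left (hf : Cfsg.Geo.IsSymplecticForm f) (x y : ι → F) : f (-x) y = -f x y := by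
  simpa using hf.bilinear.smul_left (-1) x y

theorem neg_right (hf : Cfsg.Geo.IsSymplecticForm f) (x y : ι → F) : f x (-y) = -f x y := by
  simpa using hf.bilinear.smul_right (-1) x y

theorem sub_left (hf : Cfsg.Geo.IsSymplecticForm f) (x y z : ι → F) :
    f (x - y) z = f x z - f y z := by
  rw [sub_eq_add_neg, hf.bilinear.add_left, neg_left hf, ← sub_eq_add_neg]

theorem sympT_conj (hf : Cfsg.Geo.IsSymplecticForm f) {g : GL ι F}
    (hg : ∀ x y, f ((g : Matrix ι ι F) *ᵥ x) ((g : Matrix ι ι F) *ᵥ y) = f x y) (v : ι → F) (c : F) :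
    g * sympT hf v c * g⁻¹ = sympT hf ((g : Matrix ι ι F) *ᵥ v) c := by
  rw [mul_inv_eq_iff_eq_mul]
  apply ext_mulVec
  intro x
  rw [Units.val_mul, Units.val_mul, ← mulVec_mulVec, ← mulVec_mulVec, sympT_mulVec, sympT_mulVec,
    mulVec_add, mulVec_smul, hg]

theorem sympT_add (hf : Cfsg.Geo.IsSymplecticForm f) (v : ι → F) (c d : F) :
    sympT hf v c * sympT hf v d = sympT hf v (c + d) := by
  apply ext_mulVec
  intro x
  rw [Units.val_mul, ← mulVec_mulVec]
  simp [sympT_mulVec, hf.bilinear.add_left, hf.bilinear.smul_left, hf.alternating]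
  module

theorem sympT_zero_coeff (hf : Cfsg.Geo.IsSymplecticForm f) (v : ι → F) : sympT hf v 0 = 1 :=
  ext_mulVec fun x => by simp [sympT_mulVec]

theorem sympT_zero_centre (hf : Cfsg.Geo.IsSymplecticForm f) (c : F) : sympT hf 0 c = 1 :=
  ext_mulVec fun x => by simp [sympT_mulVec]

theorem sympT_inv (hf : Cfsg.Geo.IsSymplecticForm f) (v : ι → F) (c : F) :
    (sympT hf v c)⁻¹ = sympT hf v (-c) :=
  inv_eq_of_mul_eq_one_right (by rw [sympT_add, add_neg_cancel, sympT_zero_coeff])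

theorem sympT_smul (hf : Cfsg.Geo.IsSymplecticForm f) (v : ι → F) (s c : F) :
    sympT hf (s • v) c = sympT hf v (c * s ^ 2) :=
  ext_mulVec fun x => by simp [sympT_mulVec, hf.bilinear.smul_right]; module

/-- The root element `x ↦ x + f(x,v) a + f(x,a) v + z f(x,a) a`. -/
noncomputable def Y (hf : Cfsg.Geo.IsSymplecticForm f) (a v : ι → F) (z : F) : GL ι F :=
  sympT hf (v + a) 1 * sympT hf v (-1) * sympT hf a (z - 1)

theorem Y_mulVec (hf : Cfsg.Geo.IsSymplecticForm f) {a v : ι → F} (h : f v a = 0) (z : F) (x : ι → F) :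
    (Y hf a v z : Matrix ι ι F) *ᵥ x = x + f x v • a + f x a • v + (z * f x a) • a := by
  simp only [Y, Units.val_mul, ← mulVec_mulVec, sympT_mulVec]
  simp [hf.bilinear.add_left, hf.bilinear.add_right, hf.bilinear.smul_left, hf.alternating, h,
    orth_comm hf h, neg_left hf]
  module

theorem Y_preserves (hf : Cfsg.Geo.IsSymplecticForm f) (a v : ι → F) (z : F) (x y : ι → F) :
    f ((Y hf a v z : Matrix ι ι F) *ᵥ x) ((Y hf a v z : Matrix ι ι F) *ᵥ y) = f x y := by
  simp only [Y, Units.val_mul, ← mulVec_mulVec, sympT_preserves hf]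

theorem Y_mul (hf : Cfsg.Geo.IsSymplecticForm f) {a v v' : ι → F} (h : f v a = 0) (h' : f v' a = 0)
    (z z' : F) : Y hf a v z * Y hf a v' z' = Y hf a (v + v') (z + z' + f v' v) := by
  apply ext_mulVec
  intro x
  rw [Units.val_mul, ← mulVec_mulVec, Y_mulVec hf h', Y_mulVec hf h, Y_mulVec hf (v := v + v')
    (by rw [hf.bilinear.add_left, h, h', add_zero])]
  simp [hf.bilinear.add_left, hf.bilinear.add_right, hf.bilinear.smul_left, hf.alternating, h',
    orth_comm hf h]
  module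

theorem Y_zero (hf : Cfsg.Geo.IsSymplecticForm f) (a : ι → F) (z : F) : Y hf a 0 z = sympT hf a z :=
  ext_mulVec fun x => by
    rw [Y_mulVec hf (AltFormTransv.zero_left hf a), sympT_mulVec]; simp [AltFormTransv.zero_right hf]

theorem Y_inv (hf : Cfsg.Geo.IsSymplecticForm f) {a v : ι → F} (h : f v a = 0) (z : F) :
    (Y hf a v z)⁻¹ = Y hf a (-v) (-z) := by
  refine inv_eq_of_mul_eq_one_right ?_
  rw [Y_mul hf h (by rw [neg_left hf, h, neg_zero]), neg_left hf, hf.alternating, add_neg_cancel,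
    Y_zero]
  simp [sympT_zero_coeff]

theorem Y_conj (hf : Cfsg.Geo.IsSymplecticForm f) {g : GL ι F}
    (hg : ∀ x y, f ((g : Matrix ι ι F) *ᵥ x) ((g : Matrix ι ι F) *ᵥ y) = f x y) {a : ι → F}
    (ha : (g : Matrix ι ι F) *ᵥ a = a) (v : ι → F) (z : F) :
    g * Y hf a v z * g⁻¹ = Y hf a ((g : Matrix ι ι F) *ᵥ v) z := by
  have h1 := sympT_conj hf hg (v + a) 1
  rw [mulVec_add, ha] at h1
  have h2 := sympT_conj hf hg v (-1)
  have h3 := sympT_conj hf hg a (z - 1)
  rw [ha] at h3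
  unfold Y
  calc g * (sympT hf (v + a) 1 * sympT hf v (-1) * sympT hf a (z - 1)) * g⁻¹
      = g * sympT hf (v + a) 1 * g⁻¹ * (g * sympT hf v (-1) * g⁻¹) * (g * sympT hf a (z - 1) * g⁻¹) := by
        group
    _ = _ := by rw [h1, h2, h3]

/-- Rational vectors separating. -/
theorem exists_rat_pair_ne (hf : Cfsg.Geo.IsSymplecticForm f) {b : ι → F} (hb : b ≠ 0) :
    ∃ x : ι → F, Rat F₀ x ∧ f x b ≠ 0 := by
  obtain ⟨i, hi⟩ := exists_ne_zero_of_ne_zero (φ := pair hf b)
    (fun h => hb (pairHom_injective hf (show pairHom hf b = pairHom hf 0 by rw [map_zero]; exact h)))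
  exact ⟨_, rat_single i, hi⟩

theorem exists_rat_common (hf : Cfsg.Geo.IsSymplecticForm f) {u v : ι → F} (hu : u ≠ 0) (hv : v ≠ 0) :
    ∃ z : ι → F, Rat F₀ z ∧ f z u ≠ 0 ∧ f z v ≠ 0 := by
  obtain ⟨x, hx, hxu⟩ := exists_rat_pair_ne (F₀ := F₀) hf hu
  obtain ⟨y, hy, hyv⟩ := exists_rat_pair_ne (F₀ := F₀) hf hv
  by_cases h1 : f x v = 0
  · by_cases h2 : f y u = 0
    · exact ⟨x + y, hx.add hy, by rwa [hf.bilinear.add_left, h2, add_zero],
        by rwa [hf.bilinear.add_left, h1, zero_add]⟩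
    · exact ⟨y, hy, h2, hyv⟩
  · exact ⟨x, hx, hxu, h1⟩

/-- Rationality of a form. -/
abbrev RatForm (f : (ι → F) → (ι → F) → F) (F₀ : Subfield F) : Prop :=
  ∀ u v, Rat F₀ u → Rat F₀ v → f u v ∈ F₀

theorem ratD_pair (hf : Cfsg.Geo.IsSymplecticForm f) (hR : RatForm f F₀) {b : ι → F} (hb : Rat F₀ b) :
    RatD F₀ (pair hf b) := fun i => hR _ _ (rat_single i) hb

theorem rat_of_ratD_pair (hf : Cfsg.Geo.IsSymplecticForm f) (hR : RatForm f F₀) {u : ι → F}
    (hu : RatD F₀ (pair hf u)) : Rat F₀ u := by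
  have hc : ∀ v : ι → F₀, Rat F₀ (fun i => (v i : F)) := fun v i => (v i).2
  let L : (ι → F₀) →ₗ[F₀] (ι → F₀) :=
    { toFun := fun v i => ⟨f (Pi.single i 1) (fun j => (v j : F)), hR _ _ (rat_single i) (hc v)⟩
      map_add' := fun v w => funext fun i => Subtype.ext (by
        show f _ _ = f _ _ + f _ _
        rw [← hf.bilinear.add_right]; rfl)
      map_smul' := fun c v => funext fun i => Subtype.ext (by
        show f _ _ = (c : F) * f _ _
        rw [← hf.bilinear.smul_right]; rfl) }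
  have hL : Function.Injective L := by
    intro v w hvw
    have : pair hf (fun j => (v j : F)) = pair hf (fun j => (w j : F)) :=
      dual_ext (F₀ := F₀) fun x hx => by
        rw [dual_apply_eq_sum, dual_apply_eq_sum (pair hf fun j => (w j : F))]
        exact Finset.sum_congr rfl fun i _ => by
          rw [show pair hf (fun j => (v j : F)) (Pi.single i 1) = pair hf (fun j => (w j : F)) (Pi.single i 1)
            from congrArg Subtype.val (congrFun hvw i)]
    have := pairHom_injective hf this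
    exact funext fun i => Subtype.ext (congrFun this i)
  obtain ⟨v, hv⟩ := LinearMap.injective_iff_surjective.mp hL fun i => ⟨_, hu i⟩
  have : pair hf u = pair hf (fun j => (v j : F)) := dual_ext (F₀ := F₀) fun x hx => by
    rw [dual_apply_eq_sum, dual_apply_eq_sum (pair hf fun j => (v j : F))]
    exact Finset.sum_congr rfl fun i _ => by
      rw [show pair hf (fun j => (v j : F)) (Pi.single i 1) = pair hf u (Pi.single i 1)
        from congrArg Subtype.val (congrFun hv i)]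
  rw [pairHom_injective hf this]
  exact hc v

theorem exists_rat_perp_sep (hf : Cfsg.Geo.IsSymplecticForm f) (hR : RatForm f F₀) {a b : ι → F}
    (hb : Rat F₀ b) (hb0 : b ≠ 0) (hab : ∀ s : F, a ≠ s • b) :
    ∃ z, Rat F₀ z ∧ f z b = 0 ∧ f z a ≠ 0 := by
  by_contra hno
  push Not at hno
  have hp : pair hf b ≠ 0 := fun h =>
    hb0 (pairHom_injective hf (show pairHom hf b = pairHom hf 0 by rw [map_zero]; exact h))
  obtain ⟨s, hs⟩ := mem_dual_line_of_forall (ψ := pair hf a) (ratD_pair hf hR hb) hp hno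
  rw [← pair_smul] at hs
  exact hab s (pairHom_injective hf hs)

variable (hf : Cfsg.Geo.IsSymplecticForm f) (hR : RatForm f F₀) {M : Subgroup (GL ι F)}
  (hT : ∀ v c, Rat F₀ v → c ∈ F₀ → sympT hf v c ∈ M)

include hT in
theorem Y_rat_mem {a v : ι → F} {z : F} (ha : Rat F₀ a) (hv : Rat F₀ v) (hz : z ∈ F₀) :
    Y hf a v z ∈ M :=
  M.mul_mem (M.mul_mem (hT _ _ (hv.add ha) F₀.one_mem) (hT _ _ hv (F₀.neg_mem F₀.one_mem)))
    (hT _ _ ha (F₀.sub_mem hz F₀.one_mem))

include hT in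
theorem Y_commutator {a v w : ι → F} {z : F} (hv : f v a = 0) (hY : Y hf a v z ∈ M) (hw : Rat F₀ w)
    (hwa : f w a = 0) : Y hf a (f v w • w) (-(f v w) ^ 2) ∈ M := by
  have hta : (sympT hf w 1 : Matrix ι ι F) *ᵥ a = a := by
    simp [sympT_mulVec, orth_comm hf hwa]
  have htM := hT w 1 hw F₀.one_mem
  have h1 := M.mul_mem (M.mul_mem (M.mul_mem htM hY) (M.inv_mem htM)) (M.inv_mem hY)
  rw [Y_conj hf (sympT_preserves hf w 1) hta, sympT_mulVec, one_mul, Y_inv hf hv,
    Y_mul hf (by rw [hf.bilinear.add_left, hf.bilinear.smul_left, hv, hwa, mul_zero, add_zero])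
      (by rw [neg_left hf, hv, neg_zero])] at h1
  convert h1 using 2
  · module
  · rw [neg_left hf, hf.bilinear.add_right, hf.alternating, hf.bilinear.smul_right]; ring

include hR hT in
/-- An irrational root element gives an irrational long root element. -/
theorem long_root_of_root [Fintype F] (hn : 6 ≤ Fintype.card ι) {a v w : ι → F} {z : F}
    (ha : Rat F₀ a) (ha0 : a ≠ 0) (hv : f v a = 0) (hY : Y hf a v z ∈ M) (hw : Rat F₀ w)
    (hwa : f w a = 0) (hσ : f v w ∉ F₀) : ∃ σ, σ ∉ F₀ ∧ sympT hf a σ ∈ M := by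
  have hN := Y_commutator hf hT hv hY hw hwa
  set σ := f v w with hσdef
  have hσwa : f (σ • w) a = 0 := by rw [hf.bilinear.smul_left, hwa, mul_zero]
  obtain ⟨w₁, hw₁, hw₁a, hw₁w⟩ : ∃ z, Rat F₀ z ∧ f z a = 0 ∧ f z w ≠ 0 :=
    exists_rat_perp_sep hf hR ha ha0 fun s hs => hσ (by
      rw [hσdef, hs, hf.bilinear.smul_right, hv, mul_zero]; exact F₀.zero_mem)
  set w' := (f w₁ w)⁻¹ • w₁ with hw'
  have hw'r : Rat F₀ w' := hw₁.smul (F₀.inv_mem (hR _ _ hw₁ hw))
  have hw'a : f w' a = 0 := by rw [hw', hf.bilinear.smul_left, hw₁a, mul_zero]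
  have hw'w : f w' w = 1 := by rw [hw', hf.bilinear.smul_left, inv_mul_cancel₀ hw₁w]
  clear_value w' σ
  by_cases h2 : (2 : F) = 0
  swap
  · refine ⟨2 * σ, fun h => hσ ?_, ?_⟩
    · have : σ = 2 * σ / 2 := by field_simp
      rw [this]
      exact F₀.div_mem h (by simpa using F₀.add_mem F₀.one_mem F₀.one_mem |> (one_add_one_eq_two (R := F) ▸ ·))
    · have hy' := Y_rat_mem hf hT ha hw'r F₀.zero_mem
      have e : Y hf a (σ • w) (-σ ^ 2) * Y hf a w' 0 =
          sympT hf a (2 * σ) * (Y hf a w' 0 * Y hf a (σ • w) (-σ ^ 2)) := by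
        rw [← Y_zero hf a, Y_mul hf hw'a hσwa, Y_mul hf hσwa hw'a,
          Y_mul hf (AltFormTransv.zero_left hf a) (by rw [hf.bilinear.add_left, hw'a, hσwa, add_zero])]
        congr 1
        · module
        · rw [AltFormTransv.zero_right hf, hf.bilinear.smul_right, hf.bilinear.smul_left, hw'w,
            hf.skew w w', hw'w]
          ring
      rw [eq_mul_inv_of_mul_eq e.symm]
      exact M.mul_mem (M.mul_mem hN hy') (M.inv_mem (M.mul_mem hy' hN))
  have hneg : ∀ x : F, -x = x := fun x => by linear_combination (-x) * h2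
  have hσ2 : σ ^ 2 ∉ F₀ := by
    intro h
    haveI : CharP F 2 := by
      have : CharP F (ringChar F) := ringChar.charP F
      have h2' : ringChar F ∣ 2 := (CharP.cast_eq_zero_iff F (ringChar F) 2).mp (by exact_mod_cast h2)
      rcases (Nat.dvd_prime Nat.prime_two).mp h2' with h | h
      · exact absurd h (CharP.ringChar_ne_one)
      · exact h ▸ this
    haveI : CharP F₀ 2 := F₀.subtype.charP Subtype.val_injective 2
    obtain ⟨y, hy⟩ := (bijective_frobenius F₀ 2).2 ⟨σ ^ 2, h⟩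
    rw [frobenius_def] at hy
    have h1 : (y : F) ^ 2 = σ ^ 2 := by rw [← SubmonoidClass.coe_pow, hy]
    have h3 : ((y : F) - σ) ^ 2 = 0 := by linear_combination h1 + (σ ^ 2 - y * σ) * h2
    exact hσ (sub_eq_zero.mp (pow_eq_zero_iff two_ne_zero |>.mp h3) ▸ y.2)
  refine ⟨σ ^ 2, hσ2, ?_⟩
  rw [hneg] at hN
  set C : (ι → F) → Prop := fun u => Y hf a (σ • u) (σ ^ 2) ∈ M with hC
  have step : ∀ u u', f u a = 0 → Rat F₀ u' → f u' a = 0 → f u u' = 1 → C u → C u' := by
    intro u u' hua hu' hu'a huu hu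
    have := Y_commutator hf hT (by rw [hf.bilinear.smul_left, hua, mul_zero]) hu hu' hu'a
    rwa [hf.bilinear.smul_left, huu, mul_one, hneg] at this
  have hww' : f w w' = 1 := by rw [hf.skew, hw'w, hneg]
  have hCw' : C w' := step w w' hwa hw'r hw'a hww' hN
  obtain ⟨y₁, hy₁, hy₁a⟩ := exists_rat_pair_ne (F₀ := F₀) hf ha0
  set ya := (f y₁ a)⁻¹ • y₁ with hya
  have hyar : Rat F₀ ya := hy₁.smul (F₀.inv_mem (hR _ _ hy₁ ha))
  have hyaa : f ya a = 1 := by rw [hya, hf.bilinear.smul_left, inv_mul_cancel₀ hy₁a]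
  obtain ⟨e, he, he0, hek⟩ := exists_rat_kernel (F₀ := F₀) (k := 4) (by omega)
    ![pair hf a, pair hf w, pair hf w', pair hf ya]
    (by simp [Fin.forall_fin_succ, ratD_pair hf hR, ha, hw, hw'r, hyar])
  have hea : f e a = 0 := hek 0
  have hew : f e w = 0 := hek 1
  have hew' : f e w' = 0 := hek 2
  have heya : f e ya = 0 := hek 3
  obtain ⟨e₁, he₁, he₁a, he₁w, he₁e⟩ : ∃ x, Rat F₀ x ∧ f x a = 0 ∧ f x w = 0 ∧ f x e ≠ 0 := by
    by_contra hno
    push Not at hno
    obtain ⟨x, hx, hxe⟩ := exists_rat_pair_ne (F₀ := F₀) hf he0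
    apply hxe
    have h := hno (x - f x w • w' - f x a • (ya - f ya w • w'))
      ((hx.sub (hw'r.smul (hR _ _ hx hw))).sub
        ((hyar.sub (hw'r.smul (hR _ _ hyar hw))).smul (hR _ _ hx ha)))
      (by simp [sub_left hf, hf.bilinear.smul_left, hw'a, hyaa])
      (by simp [sub_left hf, hf.bilinear.smul_left, hw'w])
    simpa [sub_left hf, hf.bilinear.smul_left, orth_comm hf hew', orth_comm hf heya] using h
  set e' := (f e₁ e)⁻¹ • e₁ + w' with he'
  have he'r : Rat F₀ e' := (he₁.smul (F₀.inv_mem (hR _ _ he₁ he))).add hw'r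
  have he'a : f e' a = 0 := by simp [he', hf.bilinear.add_left, hf.bilinear.smul_left, he₁a, hw'a]
  have he'w : f e' w = 1 := by simp [he', hf.bilinear.add_left, hf.bilinear.smul_left, he₁w, hw'w]
  have he'e : f e' e = 1 := by
    simp [he', hf.bilinear.add_left, hf.bilinear.smul_left, orth_comm hf hew', he₁e]
  have hCe : C e := step e' e he'a he hea he'e
    (step w e' hwa he'r he'a (by rw [hf.skew, he'w, hneg]) hN)
  have hCs : C (w + e) := step w' (w + e) hw'a (hw.add he)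
    (by rw [hf.bilinear.add_left, hwa, hea, add_zero])
    (by rw [hf.bilinear.add_right, hw'w, orth_comm hf hew', add_zero]) hCw'
  have hσea : f (σ • e) a = 0 := by rw [hf.bilinear.smul_left, hea, mul_zero]
  have h3 := M.mul_mem hN hCe
  rw [Y_mul hf hσwa hσea, hf.bilinear.smul_left, hf.bilinear.smul_right, hew, mul_zero, mul_zero,
    add_zero, ← smul_add, show σ ^ 2 + σ ^ 2 = 0 by linear_combination σ ^ 2 * h2] at h3
  have hswa : f (σ • (w + e)) a = 0 := by
    rw [hf.bilinear.smul_left, hf.bilinear.add_left, hwa, hea, add_zero, mul_zero]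
  have e5 : Y hf a (σ • (w + e)) (σ ^ 2) = sympT hf a (σ ^ 2) * Y hf a (σ • (w + e)) 0 := by
    rw [← Y_zero hf a, Y_mul hf (AltFormTransv.zero_left hf a) hswa, AltFormTransv.zero_right hf, zero_add, add_zero,
      add_zero]
  rw [eq_mul_inv_of_mul_eq e5.symm]
  exact M.mul_mem hCs (M.inv_mem h3)

include hR hT in
/-- A transvection of `M` with irrational centre orthogonal to a rational vector. -/
theorem long_root_of_orth [Fintype F] (hn : 6 ≤ Fintype.card ι) {a b : ι → F} {k : F}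
    (hk : k ≠ 0) (hbM : sympT hf b k ∈ M) (hbL : ¬ RatLine F₀ b) (ha : Rat F₀ a) (ha0 : a ≠ 0)
    (hab : f a b = 0) : ∃ σ, σ ∉ F₀ ∧ sympT hf a σ ∈ M := by
  obtain ⟨w₀, hw₀, hw₀a, hw₀b⟩ := exists_rat_perp_sep hf hR ha ha0
    (a := b) fun s hs => hbL ⟨s, a, ha, hs⟩
  set lam := f b w₀ with hlam
  have hlam0 : lam ≠ 0 := fun h => hw₀b (orth_comm hf h)
  have hba : f b a = 0 := orth_comm hf hab
  set μ := k * lam with hμ
  have hμ0 : μ ≠ 0 := mul_ne_zero hk hlam0
  have ht := Y_rat_mem hf hT ha hw₀ F₀.zero_mem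
  have h1 := M.mul_mem (M.mul_mem (M.mul_mem ht hbM) (M.inv_mem ht)) (M.inv_mem hbM)
  rw [sympT_conj hf (Y_preserves hf _ _ _), sympT_inv] at h1
  have htb : (Y hf a w₀ 0 : Matrix ι ι F) *ᵥ b = b + lam • a := by
    rw [Y_mulVec hf hw₀a]; simp [hba, hlam]
  have hμba : f (μ • b) a = 0 := by rw [hf.bilinear.smul_left, hba, mul_zero]
  have hYb : Y hf a (μ • b) (k * lam ^ 2) ∈ M := by
    convert h1 using 1
    apply ext_mulVec
    intro x
    rw [htb, Units.val_mul, ← mulVec_mulVec, Y_mulVec hf hμba, sympT_mulVec, sympT_mulVec]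
    simp [hf.bilinear.add_left, hf.bilinear.add_right, hf.bilinear.smul_left, hf.bilinear.smul_right,
      hf.alternating, hba, hμ, neg_left hf]
    module
  by_cases hall : ∃ w, Rat F₀ w ∧ f w a = 0 ∧ f (μ • b) w ∉ F₀
  · obtain ⟨w, hw, hwa, hwσ⟩ := hall
    exact long_root_of_root hf hR hT hn ha ha0 hμba hYb hw hwa hwσ
  push Not at hall
  obtain ⟨y₁, hy₁, hy₁a⟩ := exists_rat_pair_ne (F₀ := F₀) hf ha0
  set e := (f y₁ a)⁻¹ • y₁ with he
  have her : Rat F₀ e := hy₁.smul (F₀.inv_mem (hR _ _ hy₁ ha))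
  have hea : f e a = 1 := by rw [he, hf.bilinear.smul_left, inv_mul_cancel₀ hy₁a]
  set u := μ • (b - f e b • a) with hu
  have hur : Rat F₀ u := rat_of_ratD_pair hf hR fun i => by
    set x : ι → F := Pi.single i 1
    have hx : Rat F₀ x := rat_single i
    have h := F₀.neg_mem (hall (x - f x a • e) (hx.sub (her.smul (hR _ _ hx ha)))
      (by rw [sub_left hf, hf.bilinear.smul_left, hea, mul_one, sub_self]))
    rw [hf.bilinear.smul_left, hf.skew b, mul_neg, neg_neg, sub_left hf, hf.bilinear.smul_left] at h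
    rw [pair_apply, hu, hf.bilinear.smul_right, sub_right hf, hf.bilinear.smul_right]
    convert h using 2
    ring
  set β := μ * f e b with hβ
  have hμb : μ • b = u + β • a := by rw [hu, hβ]; module
  have huw : f u w₀ = k * lam ^ 2 := by
    rw [hu, hf.bilinear.smul_left, sub_left hf, hf.bilinear.smul_left, orth_comm hf hw₀a, mul_zero,
      sub_zero, ← hlam, hμ]
    ring
  have hc : k * lam ^ 2 ∈ F₀ := huw ▸ hR _ _ hur hw₀
  have hβF : β ∉ F₀ := fun h => hbL ⟨μ⁻¹, u + β • a, hur.add (ha.smul h),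
    by rw [← hμb, inv_smul_smul₀ hμ0]⟩
  have hua : f u a = 0 := by
    rw [hu, hf.bilinear.smul_left, sub_left hf, hf.bilinear.smul_left, hba, hf.alternating]
    ring
  set c := (k * lam ^ 2)⁻¹ with hcdef
  have hsua : f ((c * β) • u) a = 0 := by rw [hf.bilinear.smul_left, hua, mul_zero]
  have e6 : sympT hf b k = sympT hf u c * Y hf a ((c * β) • u) (c * β ^ 2) := by
    have e7 : sympT hf b k = sympT hf (μ • b) c := by
      rw [sympT_smul]; congr 1; rw [hcdef, hμ]; field_simp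
    rw [e7, hμb]
    apply ext_mulVec
    intro x
    rw [Units.val_mul, ← mulVec_mulVec, Y_mulVec hf hsua, sympT_mulVec, sympT_mulVec]
    simp [hf.bilinear.add_left, hf.bilinear.add_right, hf.bilinear.smul_left, hf.bilinear.smul_right,
      hf.alternating, hua, orth_comm hf hua]
    module
  have hYu : Y hf a ((c * β) • u) (c * β ^ 2) ∈ M := by
    rw [show Y hf a ((c * β) • u) (c * β ^ 2) = (sympT hf u c)⁻¹ * sympT hf b k by rw [e6]; group]
    exact M.mul_mem (M.inv_mem (hT _ _ hur (F₀.inv_mem hc))) hbM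
  refine long_root_of_root hf hR hT hn ha ha0 hsua hYu hw₀ hw₀a ?_
  rw [hf.bilinear.smul_left, huw, hcdef]
  rwa [mul_comm (k * lam ^ 2)⁻¹ β, mul_assoc, inv_mul_cancel₀ (mul_ne_zero hk (pow_ne_zero 2 hlam0)),
    mul_one]

end CfsgLib.Subfield54.Sp
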